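import Cfsg.Agent.Chars.Quasiprimitive.BergerRefine
import Cfsg.Agent.Chars.Induced.Basic
import Cfsg.Agent.Chars.Induced.Rep

/-!
# Berger's theorem: quasiprimitive characters of solvable groups are primitive
-/

set_option autoImplicit false

noncomputable section

namespace CfsgLib.Chars.Berger

open Module Cfsg
open CfsgLib.Chars.Quasiprimitive

variable {G : Type*} [Group G] {n : ℕ} {ρ : Representation ℂ G (Fin n → ℂ)}

/-- `J` carries a nonzero invariant subspace of dimension at most `n / [G : J]`. -/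
def Inducing (ρ : Representation ℂ G (Fin n → ℂ)) (J : Subgroup G) : Prop :=
  ∃ U : Submodule ℂ (Fin n → ℂ), U ≠ ⊥ ∧ (∀ g ∈ J, ∀ u ∈ U, ρ g u ∈ U) ∧
    J.index * finrank ℂ U ≤ n

/-- A larger subgroup still carries such a subspace. -/
theorem Inducing.mono [Finite G] {J H : Subgroup G} (hJ : Inducing ρ J) (hJH : J ≤ H) :
    Inducing ρ H := by
  classical
  obtain ⟨U, hU0, hUinv, hdim⟩ := hJ
  haveI := Fintype.ofFinite G
  haveI := Fintype.ofFinite (H ⧸ J.subgroupOf H)
  let f : H ⧸ J.subgroupOf H → Submodule ℂ (Fin n → ℂ) := fun c => U.map (ρ ((c.out : H) : G))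
  set U' := Finset.univ.sup f
  have hmem : ∀ h : H, ∀ u ∈ U, ρ (h : G) u ∈ U' := by
    intro h u hu
    set c : H ⧸ J.subgroupOf H := QuotientGroup.mk h
    have hj : (((c.out⁻¹ * h : H)) : G) ∈ J := by
      have h1 := QuotientGroup.eq.1 (QuotientGroup.out_eq' c)
      rwa [Subgroup.mem_subgroupOf] at h1
    have hsplit : (h : G) = ((c.out : H) : G) * (((c.out⁻¹ * h : H)) : G) := by
      rw [← Subgroup.coe_mul, mul_inv_cancel_left]
    rw [hsplit, map_mul, Module.End.mul_apply]
    exact Finset.le_sup (f := f) (Finset.mem_univ c) (Submodule.mem_map_of_mem (hUinv _ hj u hu))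
  refine ⟨U', ?_, fun g hg x hx => ?_, ?_⟩
  · intro h
    apply hU0
    rw [eq_bot_iff, ← h]
    intro u hu
    simpa using hmem 1 u hu
  · have hle : U' ≤ U'.comap (ρ g) := Finset.sup_le fun c _ => by
      rintro _ ⟨u, hu, rfl⟩
      rw [Submodule.mem_comap, ← Module.End.mul_apply, ← map_mul]
      exact hmem (⟨g, hg⟩ * c.out) u hu
    exact hle hx
  · have h1 : finrank ℂ U' ≤ J.relIndex H * finrank ℂ U := by
      refine (finrank_sup_le Finset.univ f).trans ?_
      refine (Finset.sum_le_sum fun c _ => Submodule.finrank_map_le _ U).trans ?_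
      rw [Finset.sum_const, Finset.card_univ, smul_eq_mul, ← Nat.card_eq_fintype_card]
      rfl
    calc H.index * finrank ℂ U' ≤ H.index * (J.relIndex H * finrank ℂ U) :=
          Nat.mul_le_mul_left _ h1
      _ = J.index * finrank ℂ U := by
          rw [← Subgroup.relIndex_mul_index hJH]; ring
      _ ≤ n := hdim

/-- The subspace coming from a character inducing the character of `ρ`. -/
theorem inducing_of_indFun [Fintype G] (hρ : ρ.IsIrreducible) {J : Subgroup G} {ψ : J → ℂ}
    (hψ : IsCharacter J ψ) (h : indFun J ψ = ρ.character) : Inducing ρ J := by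
  classical
  obtain ⟨m, σ, rfl⟩ := hψ
  have hdeg : J.index * m = n := by
    have h1 := congrFun h 1
    rw [CfsgLib.Chars.Induced.indFun_one_apply, Representation.char_one, Representation.char_one,
      Module.finrank_fin_fun, Module.finrank_fin_fun] at h1
    exact_mod_cast h1
  let τ : Representation ℂ J (Fin n → ℂ) := ρ.comp J.subtype
  haveI : Invertible (Nat.card J : ℂ) :=
    invertibleOfNonzero (Nat.cast_ne_zero.2 Nat.card_pos.ne')
  have hfin := Representation.card_inv_mul_sum_char_mul_char_eq_finrank σ τ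
  have hinner : classInner (fun x : J => ρ.character x) σ.character = 1 := by
    rw [← CfsgLib.Chars.Induced.classInner_indFun_right J σ.character
      (CfsgLib.Chars.Induced.isClassFunction_of_isCharacter ⟨n, ρ, rfl⟩), h]
    exact CfsgLib.Chars.classInner_self ⟨ρ.character, ⟨n, ρ, hρ, rfl⟩⟩
  rw [CfsgLib.Chars.classInner_eq_sum_map_inv _ ⟨m, σ, rfl⟩] at hinner
  have hone : Module.finrank ℂ (Representation.IntertwiningMap σ τ) = 1 := by
    have h2 : ((Module.finrank ℂ (Representation.IntertwiningMap σ τ) : ℕ) : ℂ) = 1 :=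
      hfin.symm.trans hinner
    exact_mod_cast h2
  haveI : Nontrivial (Representation.IntertwiningMap σ τ) :=
    Module.nontrivial_of_finrank_pos (R := ℂ) (by omega)
  obtain ⟨f, hf⟩ := exists_ne (0 : Representation.IntertwiningMap σ τ)
  refine ⟨LinearMap.range f.toLinearMap, fun hb => hf ?_, ?_, ?_⟩
  · refine Representation.IntertwiningMap.ext (LinearMap.ext fun x => ?_)
    have hx : f.toLinearMap x ∈ (⊥ : Submodule ℂ (Fin n → ℂ)) := hb ▸ LinearMap.mem_range_self _ x
    simpa using hx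
  · rintro g hg _ ⟨x, rfl⟩
    exact ⟨σ ⟨g, hg⟩ x, LinearMap.congr_fun (f.isIntertwining' ⟨g, hg⟩) x⟩
  · refine le_trans (Nat.mul_le_mul_left _ ?_) hdeg.le
    exact (LinearMap.finrank_range_le _).trans_eq (Module.finrank_fin_fun ℂ)

/-- **Berger's theorem.** -/
theorem not_inducing [Finite G] [Group.IsSolvable G] (hρ : ρ.IsIrreducible)
    (hhom : ∀ N : Subgroup G, N.Normal → Homog ρ N) (J : Subgroup G) (hJ : J ≠ ⊤) :
    ¬ Inducing ρ J := by
  classical
  intro hJi
  haveI : Finite (Subgroup G) := Finite.of_injective _ SetLike.coe_injective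
  obtain ⟨H₀, hH₀, hJH₀⟩ := (eq_top_or_exists_le_coatom J).resolve_left hJ
  let T : Set (Subgroup G) :=
    {L | ∃ H : Subgroup G, IsCoatom H ∧ Inducing ρ H ∧ H.normalCore = L}
  obtain ⟨L, ⟨H, hmax, ⟨W, hW0, hWinv, hdim⟩, hcore⟩, hLmax⟩ :=
    (Set.toFinite T).exists_maximal ⟨_, H₀, hH₀, hJi.mono hJH₀, rfl⟩
  subst hcore
  have hne : H.normalCore ≠ ⊤ := fun h => hmax.1 (top_le_iff.1 (h ▸ Subgroup.normalCore_le H))
  obtain ⟨K, hK⟩ := exists_chiefStep H.normalCore hne inferInstance
  haveI := hK.normal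
  obtain ⟨J₁, U, hKJ, hJ₁, hU0, hUinv, hUdim⟩ := exists_inducing_above hρ hmax.1 hmax rfl hK
    (hhom _ inferInstance) (hhom _ hK.normal) W hW0 hWinv hdim
  obtain ⟨H₁, hH₁, hJH₁⟩ := (eq_top_or_exists_le_coatom J₁).resolve_left hJ₁
  have hKcore : K ≤ H₁.normalCore := Subgroup.normal_le_normalCore.2 (hKJ.trans hJH₁)
  have hT : H₁.normalCore ∈ T :=
    ⟨H₁, hH₁, Inducing.mono ⟨U, hU0, hUinv, hUdim⟩ hJH₁, rfl⟩
  exact hK.lt.not_ge (hKcore.trans (hLmax hT (hK.lt.le.trans hKcore)))

end CfsgLib.Chars.Berger
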