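import Cfsg.Agent.Eq.Def_Characters
import Cfsg.Agent.Chars.FrobSchur.Basic
import Cfsg.Agent.Chars.Induced.Extension
import Cfsg.Agent.Chars.Basic.Orthogonality
import Cfsg.Agent.Chars.Basic.Columns
import Cfsg.Agent.CharExtend.Basic
import Mathlib.Analysis.Matrix.Order

/-!
# Berger's theorem: the algebra spanned by a homogeneous normal subgroup

For a normal subgroup `N` of `G` on which the character of an irreducible `ρ` is a multiple of one
irreducible character, the span of `ρ(N)` realises every conjugation by an element of `G` by one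
of its units and has only scalars in its centre.
-/

set_option autoImplicit false

noncomputable section

namespace CfsgLib.Chars.Berger

open Matrix Cfsg
open scoped ComplexConjugate ComplexOrder

section Matrices

variable {N : Type*} [Group N] [Fintype N] {k : Type*} [Fintype k] [DecidableEq k]

open scoped MatrixOrder in
theorem exists_eq_conjTranspose_mul {M : Matrix k k ℂ} (hM : M.PosDef) :
    ∃ B : Matrix k k ℂ, IsUnit B ∧ M = Bᴴ * B := by
  obtain ⟨B, hB⟩ := CStarAlgebra.nonneg_iff_eq_star_mul_self.1 hM.posSemidef.nonneg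
  refine ⟨B, ?_, hB⟩
  have h := hM.isUnit
  rw [hB, Matrix.isUnit_iff_isUnit_det, Matrix.det_mul] at h
  exact (Matrix.isUnit_iff_isUnit_det B).2 (isUnit_of_mul_isUnit_right h)

/-- An element of the group algebra image orthogonal to the image for the trace is zero. -/
theorem eq_zero_of_trace (X : N →* Matrix k k ℂ) (f : N → ℂ)
    (h : ∀ z : N, ((∑ x : N, f x • X x) * X z).trace = 0) : ∑ x : N, f x • X x = 0 := by
  set y := ∑ x : N, f x • X x with hy
  set M := CfsgLib.FrobSchur.herm X with hM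
  have hMpos : M.PosDef := CfsgLib.FrobSchur.herm_posDef X
  have hMu : IsUnit M.det := (Matrix.isUnit_iff_isUnit_det _).1 hMpos.isUnit
  have hadj : ∀ x : N, M⁻¹ * (X x)ᴴ * M = X x⁻¹ := by
    intro x
    have h1 : (X x)ᴴ * M = M * X x⁻¹ := by
      rw [hM, CfsgLib.FrobSchur.herm_mul, inv_inv]
    rw [Matrix.mul_assoc, h1, ← Matrix.mul_assoc, Matrix.nonsing_inv_mul _ hMu, Matrix.one_mul]
  have hydag : M⁻¹ * yᴴ * M = ∑ x : N, conj (f x) • X x⁻¹ := by
    rw [hy, Matrix.conjTranspose_sum, Matrix.mul_sum, Matrix.sum_mul]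
    refine Finset.sum_congr rfl fun x _ => ?_
    rw [Matrix.conjTranspose_smul, Matrix.mul_smul, Matrix.smul_mul, hadj]
    rfl
  have htr : (y * (M⁻¹ * yᴴ * M)).trace = 0 := by
    rw [hydag, Matrix.mul_sum, Matrix.trace_sum]
    refine Finset.sum_eq_zero fun x _ => ?_
    rw [Matrix.mul_smul, Matrix.trace_smul, h, smul_zero]
  obtain ⟨B, hB, hMB⟩ : ∃ B : Matrix k k ℂ, IsUnit B ∧ M⁻¹ = Bᴴ * B :=
    exists_eq_conjTranspose_mul hMpos.inv
  obtain ⟨D, hD, hMD⟩ : ∃ D : Matrix k k ℂ, IsUnit D ∧ M = Dᴴ * D :=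
    exists_eq_conjTranspose_mul hMpos
  have h2 : ((D * y * Bᴴ) * (D * y * Bᴴ)ᴴ).trace = 0 := by
    rw [← htr, hMB]
    conv_rhs => rw [hMD]
    simp only [Matrix.conjTranspose_mul, Matrix.conjTranspose_conjTranspose, Matrix.mul_assoc]
    rw [Matrix.trace_mul_comm D]
    simp only [Matrix.mul_assoc]
  rw [Matrix.trace_mul_conjTranspose_self_eq_zero_iff] at h2
  have hBH : IsUnit Bᴴ := (Matrix.isUnit_conjTranspose B).2 hB
  exact hD.mul_right_eq_zero.1 (hBH.mul_left_eq_zero.1 h2)

/-- The image of an irreducible representation spans all matrices. -/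
theorem exists_sum_eq {S : N →* Matrix k k ℂ} (hS : CfsgLib.FrobSchur.MatIrr S)
    (Y : Matrix k k ℂ) : ∃ f : N → ℂ, ∑ x : N, f x • S x = Y := by
  classical
  have := hS.1
  have hd : (Fintype.card k : ℂ) ≠ 0 := Nat.cast_ne_zero.2 Fintype.card_ne_zero
  have hN : (Fintype.card N : ℂ) ≠ 0 := Nat.cast_ne_zero.2 Fintype.card_ne_zero
  let c : ℂ := (Fintype.card N : ℂ) / Fintype.card k
  have hkey : ∀ i j a l : k, ∑ x : N, S x⁻¹ i j * S x a l =
      if j = a ∧ i = l then c else 0 := by
    intro i j a l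
    let A : Matrix k k ℂ := ∑ x : N, S x⁻¹ * Matrix.single j a (1 : ℂ) * S x
    obtain ⟨s, hs⟩ := CfsgLib.FrobSchur.schur hS (A := A) (fun g => by
      simp only [A, Matrix.mul_sum, Matrix.sum_mul]
      refine Fintype.sum_equiv (Equiv.mulRight g) _ _ fun x => ?_
      simp only [Equiv.coe_mulRight, _root_.mul_inv_rev, map_mul, ← Matrix.mul_assoc,
        CfsgLib.FrobSchur.X_mul_inv, Matrix.one_mul])
    have hsval : s = if j = a then c else 0 := by
      have htr : A.trace = (Fintype.card N : ℂ) * if j = a then 1 else 0 := by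
        simp only [A, Matrix.trace_sum]
        rw [Finset.sum_congr rfl (g := fun _ => (if j = a then (1 : ℂ) else 0)) fun x _ => ?_,
          Finset.sum_const, Finset.card_univ, nsmul_eq_mul]
        rw [Matrix.trace_mul_cycle, CfsgLib.FrobSchur.X_mul_inv, Matrix.one_mul]
        split_ifs with hja
        · subst hja; simp
        · simp [Matrix.trace_single_eq_of_ne _ _ _ hja]
      rw [hs, Matrix.trace_smul, Matrix.trace_one, smul_eq_mul] at htr
      split_ifs at htr ⊢
      · rw [show c = (Fintype.card N : ℂ) / Fintype.card k from rfl, eq_div_iff hd, htr, mul_one]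
      · simpa [hd] using htr
    have hentry : A i l = ∑ x : N, S x⁻¹ i j * S x a l := by
      simp only [A, Matrix.sum_apply]
      refine Finset.sum_congr rfl fun x _ => ?_
      rw [Matrix.mul_apply, Finset.sum_eq_single a]
      · simp [Matrix.mul_apply, Matrix.single_apply]
      · intro b _ hb
        simp [Matrix.mul_apply, Matrix.single_apply, Ne.symm hb]
      · simp
    rw [← hentry, hs, hsval, Matrix.smul_apply, Matrix.one_apply, smul_eq_mul]
    by_cases h1 : j = a <;> by_cases h2 : i = l <;> simp [h1, h2]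
  refine ⟨fun x => c⁻¹ * ∑ i : k, ∑ j : k, S x⁻¹ i j * Y j i, ?_⟩
  ext a l
  simp only [Matrix.sum_apply, Matrix.smul_apply, smul_eq_mul, mul_assoc, Finset.sum_mul,
    ← Finset.mul_sum]
  rw [inv_mul_eq_iff_eq_mul₀ (div_ne_zero hN hd), Finset.sum_comm]
  rw [Finset.sum_congr rfl fun i _ => Finset.sum_comm]
  have hre : ∀ i j : k, ∑ x : N, S x⁻¹ i j * (Y j i * S x a l) =
      Y j i * if j = a ∧ i = l then c else 0 := fun i j => by
    rw [← hkey, Finset.mul_sum]
    exact Finset.sum_congr rfl fun x _ => by ring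
  simp only [hre]
  rw [Finset.sum_eq_single l, Finset.sum_eq_single a]
  · simp [c, mul_comm]
  · intro b _ hb; simp [hb]
  · simp
  · intro b _ hb; simp [hb]
  · simp

end Matrices

variable {G : Type*} [Group G] {n : ℕ}

/-- Endomorphisms of the coordinate space. -/
abbrev Op (n : ℕ) := Module.End ℂ (Fin n → ℂ)

/-- The span of the operators of a subgroup. -/
def opSpan (ρ : Representation ℂ G (Fin n → ℂ)) (N : Subgroup G) : Submodule ℂ (Op n) :=
  Submodule.span ℂ (Set.range fun x : N => ρ x)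

variable {ρ : Representation ℂ G (Fin n → ℂ)} {N M : Subgroup G}

theorem rho_mem_opSpan {x : G} (hx : x ∈ N) : ρ x ∈ opSpan ρ N :=
  Submodule.subset_span ⟨⟨x, hx⟩, rfl⟩

theorem one_mem_opSpan : (1 : Op n) ∈ opSpan ρ N := by
  simpa using rho_mem_opSpan (ρ := ρ) N.one_mem

theorem opSpan_mono (h : N ≤ M) : opSpan ρ N ≤ opSpan ρ M :=
  Submodule.span_le.2 fun _ ⟨x, hx⟩ => hx ▸ rho_mem_opSpan (h x.2)

theorem opSpan_induction {p : Op n → Prop} (h0 : p 0) (hadd : ∀ X Y, p X → p Y → p (X + Y))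
    (hsmul : ∀ (c : ℂ) X, p X → p (c • X)) (hmem : ∀ x ∈ N, p (ρ x)) {X : Op n}
    (hX : X ∈ opSpan ρ N) : p X := by
  induction hX using Submodule.span_induction with
  | mem _ h => obtain ⟨x, rfl⟩ := h; exact hmem x x.2
  | zero => exact h0
  | add _ _ _ _ ha hb => exact hadd _ _ ha hb
  | smul c _ _ ha => exact hsmul c _ ha

theorem mul_mem_opSpan {X Y : Op n} (hX : X ∈ opSpan ρ N) (hY : Y ∈ opSpan ρ N) :
    X * Y ∈ opSpan ρ N := by
  refine opSpan_induction (p := fun A => A * Y ∈ opSpan ρ N) (by simp)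
    (fun A B hA hB => by rw [add_mul]; exact Submodule.add_mem _ hA hB)
    (fun c A hA => by rw [smul_mul_assoc]; exact Submodule.smul_mem _ c hA) (fun x hx => ?_) hX
  refine opSpan_induction (p := fun B => ρ x * B ∈ opSpan ρ N) (by simp)
    (fun A B hA hB => by rw [mul_add]; exact Submodule.add_mem _ hA hB)
    (fun c A hA => by rw [mul_smul_comm]; exact Submodule.smul_mem _ c hA) (fun y hy => ?_) hY
  rw [← map_mul]; exact rho_mem_opSpan (N.mul_mem hx hy)

theorem commute_opSpan {X Y : Op n} (hY : Y ∈ opSpan ρ N) (h : ∀ x ∈ N, Commute (ρ x) X) :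
    Commute Y X := by
  exact opSpan_induction (p := fun A => Commute A X) (Commute.zero_left _)
    (fun A B hA hB => hA.add_left hB) (fun c A hA => hA.smul_left c) h hY

/-- Conjugation by an element of the group preserves the span of a normal subgroup. -/
theorem conj_mem_opSpan [N.Normal] (g : G) {X : Op n} (hX : X ∈ opSpan ρ N) :
    ρ g * X * ρ g⁻¹ ∈ opSpan ρ N := by
  refine opSpan_induction (p := fun A => ρ g * A * ρ g⁻¹ ∈ opSpan ρ N) (by simp)
    (fun A B hA hB => by rw [mul_add, add_mul]; exact Submodule.add_mem _ hA hB)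
    (fun c A hA => by rw [mul_smul_comm, smul_mul_assoc]; exact Submodule.smul_mem _ c hA)
    (fun x hx => ?_) hX
  rw [← map_mul, ← map_mul]
  exact rho_mem_opSpan (‹N.Normal›.conj_mem x hx g)

/-- What a homogeneous restriction to a normal subgroup gives. -/
structure Homog (ρ : Representation ℂ G (Fin n → ℂ)) (N : Subgroup G) : Prop where
  intertwine : ∀ g : G, ∃ b : (Op n)ˣ, (b : Op n) ∈ opSpan ρ N ∧ ((b⁻¹ : (Op n)ˣ) : Op n) ∈ opSpan ρ N ∧
    ∀ x ∈ N, (b : Op n) * ρ x = ρ (g * x * g⁻¹) * b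
  scalar : ∀ X ∈ opSpan ρ N, (∀ x ∈ N, Commute (ρ x) X) → ∃ c : ℂ, X = c • 1

theorem homog_of_restrict [Fintype G] [N.Normal] (hρ : ρ.IsIrreducible) {θ : N → ℂ} {e : ℕ}
    (hθ : IsIrrCharacter N θ) (he : (fun x : N => ρ.character x) = (e : ℂ) • θ) : Homog ρ N := by
  classical
  obtain ⟨d, σ, hσ, rfl⟩ := hθ
  have he0 : (e : ℂ) ≠ 0 := by
    intro h0
    have h1 := congrFun he 1
    simp only [Pi.smul_apply, smul_eq_mul, h0, zero_mul, OneMemClass.coe_one,
      Representation.char_one, Module.finrank_fin_fun, Nat.cast_eq_zero] at h1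
    exact (CfsgLib.CharExtend.pos_of_irreducible hρ).ne' h1
  set X := (CfsgLib.FrobSchur.mat ρ).comp N.subtype with hX
  set S := CfsgLib.FrobSchur.mat σ with hSdef
  have hS := CfsgLib.FrobSchur.matIrr_mat σ hσ
  have htr : ∀ x : N, (X x).trace = (e : ℂ) * (S x).trace := fun x => by
    rw [hX, MonoidHom.comp_apply, CfsgLib.FrobSchur.trace_mat, CfsgLib.FrobSchur.trace_mat]
    exact congrFun he x
  have htr' : ∀ (f : N → ℂ) (z : N), ((∑ x : N, f x • X x) * X z).trace =
      (e : ℂ) * ((∑ x : N, f x • S x) * S z).trace := by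
    intro f z
    simp only [Matrix.sum_mul, Matrix.smul_mul, ← map_mul, Matrix.trace_sum, Matrix.trace_smul,
      smul_eq_mul, htr, Finset.mul_sum]
    exact Finset.sum_congr rfl fun x _ => by ring
  let Lρ : (N → ℂ) →ₗ[ℂ] Op n := ∑ x : N, (LinearMap.proj x).smulRight (ρ x)
  let Lσ : (N → ℂ) →ₗ[ℂ] Op d := ∑ x : N, (LinearMap.proj x).smulRight (σ x)
  have hLρ : ∀ f, Lρ f = ∑ x : N, f x • ρ x := fun f => by simp [Lρ]
  have hLσ : ∀ f, Lσ f = ∑ x : N, f x • σ x := fun f => by simp [Lσ]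
  have hmatρ : ∀ f, LinearMap.toMatrix' (Lρ f) = ∑ x : N, f x • X x := fun f => by
    rw [hLρ, map_sum]
    exact Finset.sum_congr rfl fun x _ => by
      rw [map_smul]; rfl
  have hmatσ : ∀ f, LinearMap.toMatrix' (Lσ f) = ∑ x : N, f x • S x := fun f => by
    rw [hLσ, map_sum]
    exact Finset.sum_congr rfl fun x _ => by
      rw [map_smul]; rfl
  have hker : ∀ f, Lσ f = 0 ↔ Lρ f = 0 := by
    intro f
    constructor
    · intro h
      apply LinearMap.toMatrix'.injective
      rw [hmatρ, map_zero]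
      refine eq_zero_of_trace X f fun z => ?_
      rw [htr', ← hmatσ, h, map_zero, Matrix.zero_mul, Matrix.trace_zero, mul_zero]
    · intro h
      apply LinearMap.toMatrix'.injective
      rw [hmatσ, map_zero]
      refine eq_zero_of_trace S f fun z => ?_
      have h1 := htr' f z
      rw [← hmatρ, h, map_zero, Matrix.zero_mul, Matrix.trace_zero] at h1
      exact (mul_eq_zero.1 h1.symm).resolve_left he0
  have hsurj : LinearMap.range Lσ = ⊤ := by
    rw [eq_top_iff]
    intro Y _
    obtain ⟨f, hf⟩ := exists_sum_eq hS (LinearMap.toMatrix' Y)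
    exact ⟨f, LinearMap.toMatrix'.injective (by rw [hmatσ, hf])⟩
  obtain ⟨sec, hsec⟩ := Lσ.exists_rightInverse_of_surjective hsurj
  have hsec' : ∀ Y, Lσ (sec Y) = Y := fun Y => LinearMap.congr_fun hsec Y
  let Φ : Op d →ₗ[ℂ] Op n := Lρ.comp sec
  have hΦL : ∀ f, Φ (Lσ f) = Lρ f := fun f => by
    rw [← sub_eq_zero]
    show Lρ (sec (Lσ f)) - Lρ f = 0
    rw [← map_sub, ← hker, map_sub, hsec', sub_self]
  have hΦinj : ∀ Y, Φ Y = 0 → Y = 0 := fun Y h => by
    have h1 := (hker (sec Y)).2 h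
    rwa [hsec'] at h1
  have hΦx : ∀ x : N, Φ (σ x) = ρ x := fun x => by
    have h1 := hΦL (Pi.single x 1)
    simpa [hLρ, hLσ, Pi.single_apply] using h1
  have hΦmul : ∀ Y Z, Φ (Y * Z) = Φ Y * Φ Z := by
    intro Y Z
    rw [← hsec' Y, ← hsec' Z, hLσ, hLσ, Finset.sum_mul_sum]
    simp only [smul_mul_smul_comm, ← map_mul σ, map_sum, map_smul, hΦx, Finset.sum_mul_sum,
      Subgroup.coe_mul, map_mul ρ]
  have hΦone : Φ 1 = 1 := by
    have h1 := hΦx 1
    simpa using h1
  have hΦmem : ∀ Y, Φ Y ∈ opSpan ρ N := fun Y => by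
    show Lρ (sec Y) ∈ _
    rw [hLρ]
    exact Submodule.sum_mem _ fun x _ => Submodule.smul_mem _ _ (rho_mem_opSpan x.2)
  let Φh : Op d →* Op n :=
    { toFun := fun Y => Φ Y, map_one' := hΦone, map_mul' := hΦmul }
  constructor
  · intro g
    obtain ⟨T, hT⟩ := CfsgLib.Chars.Induced.exists_conj_intertwiner σ hσ g (fun x => by
      have h1 := congrFun he (MulAut.conjNormal g x)
      have h2 := congrFun he x
      simp only [Pi.smul_apply, smul_eq_mul, MulAut.conjNormal_apply] at h1 h2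
      rw [Representation.char_conj, h2] at h1
      exact (mul_left_cancel₀ he0 h1).symm)
    refine ⟨Units.map Φh T, hΦmem _, hΦmem _, fun x hx => ?_⟩
    have h1 := congrArg Φ (hT ⟨x, hx⟩)
    rw [hΦmul, hΦmul, hΦx, hΦx] at h1
    simpa [Φh] using h1
  · intro Z hZ hcomm
    obtain ⟨f, rfl⟩ : Z ∈ LinearMap.range Lρ :=
      opSpan_induction (p := fun A => A ∈ LinearMap.range Lρ) (Submodule.zero_mem _)
        (fun A B hA hB => Submodule.add_mem _ hA hB) (fun c A hA => Submodule.smul_mem _ c hA)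
        (fun x hx => ⟨Pi.single (⟨x, hx⟩ : N) 1, by simp [hLρ, Pi.single_apply]⟩) hZ
    obtain ⟨c, hc⟩ := CfsgLib.Chars.Induced.exists_eq_smul_one_of_commute σ hσ (Lσ f) fun x => by
      apply sub_eq_zero.1
      apply hΦinj
      rw [map_sub, hΦmul, hΦmul, hΦx, hΦL, (hcomm x x.2).eq, sub_self]
    exact ⟨c, by rw [← hΦL, hc, map_smul, hΦone]⟩

end CfsgLib.Chars.Berger
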