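import Cfsg.Agent.Chars.Quasiprimitive.BergerAlgebra
import Cfsg.Agent.Chars.Quasiprimitive.Chief
import Mathlib.LinearAlgebra.Determinant
import Mathlib.LinearAlgebra.Basis.VectorSpace
import Mathlib.LinearAlgebra.FiniteDimensional.Lemmas
import Mathlib.LinearAlgebra.FreeModule.Finite.Matrix
import Mathlib.LinearAlgebra.Eigenspace.Triangularizable

/-!
# Berger's theorem: refining an inducing pair

An inducing pair is a subgroup `H` and a nonzero `H`-invariant subspace `W` with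
`[G : H] * dim W ≤ n`.  If `L` is the core of the maximal subgroup `H`, `K/L` a chief factor and
`ρ` is homogeneous on `L` and `K`, a proper subgroup containing `K` carries an inducing pair.
-/

set_option autoImplicit false

noncomputable section

namespace CfsgLib.Chars.Berger

open Module
open CfsgLib.Chars.Quasiprimitive

variable {G : Type*} [Group G] {n : ℕ}

/-- The span of the applications of operators in `P` to vectors in `W`. -/
def app (P : Submodule ℂ (Op n)) (W : Submodule ℂ (Fin n → ℂ)) : Submodule ℂ (Fin n → ℂ) :=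
  Submodule.map₂ LinearMap.id P W

theorem apply_mem_app {P : Submodule ℂ (Op n)} {W : Submodule ℂ (Fin n → ℂ)} {X : Op n}
    {w : Fin n → ℂ} (hX : X ∈ P) (hw : w ∈ W) : X w ∈ app P W :=
  Submodule.apply_mem_map₂ (LinearMap.id : Op n →ₗ[ℂ] Op n) hX hw

theorem app_le {P : Submodule ℂ (Op n)} {W U : Submodule ℂ (Fin n → ℂ)} :
    app P W ≤ U ↔ ∀ X ∈ P, ∀ w ∈ W, X w ∈ U :=
  Submodule.map₂_le

theorem finrank_sup_le {ι : Type*} (s : Finset ι) (f : ι → Submodule ℂ (Fin n → ℂ)) :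
    finrank ℂ (s.sup f : Submodule ℂ (Fin n → ℂ)) ≤ ∑ i ∈ s, finrank ℂ (f i) := by
  classical
  induction s using Finset.induction_on with
  | empty => simp
  | insert a s ha ih =>
    rw [Finset.sup_insert, Finset.sum_insert ha]
    exact (Submodule.finrank_add_le_finrank_add_finrank _ _).trans (by omega)

theorem finrank_app_le (P : Submodule ℂ (Op n)) (W : Submodule ℂ (Fin n → ℂ)) :
    finrank ℂ (app P W) ≤ finrank ℂ P * finrank ℂ W := by
  have : Module.Free ℂ P := Module.Free.of_divisionRing ℂ P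
  let β := Module.finBasis ℂ P
  have hle : app P W ≤ (Finset.univ.sup fun i => W.map (β i : Op n)) := by
    rw [app_le]
    intro X hX w hw
    have h := congrArg Subtype.val (β.sum_repr ⟨X, hX⟩)
    simp only [Submodule.coe_sum, Submodule.coe_smul] at h
    rw [← h, LinearMap.sum_apply]
    refine Submodule.sum_mem _ fun i _ => ?_
    rw [LinearMap.smul_apply]
    exact Submodule.smul_mem _ _
      (Finset.le_sup (f := fun i => W.map (β i : Op n)) (Finset.mem_univ i)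
        (Submodule.mem_map_of_mem hw))
  calc finrank ℂ (app P W) ≤ _ := Submodule.finrank_mono hle
    _ ≤ ∑ i, finrank ℂ (W.map (β i : Op n)) := finrank_sup_le _ _
    _ ≤ ∑ _i : Fin (finrank ℂ P), finrank ℂ W :=
        Finset.sum_le_sum fun i _ => Submodule.finrank_map_le _ _
    _ = _ := by simp

variable (ρ : Representation ℂ G (Fin n → ℂ))

theorem rho_mul_inv (g : G) : ρ g * ρ g⁻¹ = 1 := by rw [← map_mul, mul_inv_cancel, map_one]

theorem rho_inv_mul (g : G) : ρ g⁻¹ * ρ g = 1 := by rw [← map_mul, inv_mul_cancel, map_one]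

theorem rho_mul_inv_cancel (g : G) (X : Op n) : ρ g * (ρ g⁻¹ * X) = X := by
  rw [← mul_assoc, rho_mul_inv, one_mul]

theorem rho_inv_mul_cancel (g : G) (X : Op n) : ρ g⁻¹ * (ρ g * X) = X := by
  rw [← mul_assoc, rho_inv_mul, one_mul]

/-- Conjugation by the operator of a group element. -/
def conjOp (g : G) : Op n ≃ₗ[ℂ] Op n where
  toFun X := ρ g * X * ρ g⁻¹
  invFun X := ρ g⁻¹ * X * ρ g
  map_add' X Y := by rw [mul_add, add_mul]
  map_smul' c X := by simp [mul_smul_comm, smul_mul_assoc]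
  left_inv X := by
    simp only [mul_assoc]
    rw [rho_inv_mul_cancel, rho_inv_mul, mul_one]
  right_inv X := by
    simp only [mul_assoc]
    rw [rho_mul_inv_cancel, rho_mul_inv, mul_one]

theorem conjOp_apply (g : G) (X : Op n) : conjOp ρ g X = ρ g * X * ρ g⁻¹ := rfl

theorem conjOp_mul (g : G) (X Y : Op n) : conjOp ρ g (X * Y) = conjOp ρ g X * conjOp ρ g Y := by
  simp only [conjOp_apply, mul_assoc, rho_inv_mul_cancel]

theorem conjOp_conjOp (g h : G) (X : Op n) : conjOp ρ g (conjOp ρ h X) = conjOp ρ (g * h) X := by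
  simp only [conjOp_apply, mul_inv_rev, map_mul, mul_assoc]

theorem conjOp_one (g : G) : conjOp ρ g 1 = 1 := by
  rw [conjOp_apply, mul_one, rho_mul_inv]

theorem conjOp_apply_apply (g : G) (X : Op n) (v : Fin n → ℂ) :
    conjOp ρ g X (ρ g v) = ρ g (X v) := by
  show ρ g (X (ρ g⁻¹ (ρ g v))) = _
  rw [← Module.End.mul_apply (ρ g⁻¹), rho_inv_mul]
  rfl

theorem conjOp_of_mem_id {g : G} {X : Op n} (h : Commute (ρ g) X) : conjOp ρ g X = X := by
  rw [conjOp_apply, h.eq, mul_assoc, rho_mul_inv, mul_one]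

/-- The elements of the span of `K` commuting with `L`. -/
def cz (L K : Subgroup G) : Submodule ℂ (Op n) where
  carrier := {X | X ∈ opSpan ρ K ∧ ∀ l ∈ L, Commute (ρ l) X}
  zero_mem' := ⟨Submodule.zero_mem _, fun _ _ => Commute.zero_right _⟩
  add_mem' {X Y} hX hY := ⟨Submodule.add_mem _ hX.1 hY.1, fun l hl => (hX.2 l hl).add_right (hY.2 l hl)⟩
  smul_mem' c X hX := ⟨Submodule.smul_mem _ c hX.1, fun l hl => (hX.2 l hl).smul_right c⟩

variable {ρ} {L K : Subgroup G}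

theorem cz_one : (1 : Op n) ∈ cz ρ L K := ⟨one_mem_opSpan, fun _ _ => Commute.one_right _⟩

theorem cz_mul {X Y : Op n} (hX : X ∈ cz ρ L K) (hY : Y ∈ cz ρ L K) : X * Y ∈ cz ρ L K :=
  ⟨mul_mem_opSpan hX.1 hY.1, fun l hl => (hX.2 l hl).mul_right (hY.2 l hl)⟩

theorem cz_commute {X Y : Op n} (hY : Y ∈ cz ρ L K) (hX : X ∈ opSpan ρ L) : Commute X Y :=
  commute_opSpan hX hY.2

theorem cz_conj [L.Normal] [K.Normal] (g : G) {X : Op n} (hX : X ∈ cz ρ L K) :
    conjOp ρ g X ∈ cz ρ L K := by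
  refine ⟨conj_mem_opSpan g hX.1, fun l hl => ?_⟩
  have h := hX.2 (g⁻¹ * l * g) (by simpa using ‹L.Normal›.conj_mem l hl g⁻¹)
  have hl' : ρ l = conjOp ρ g (ρ (g⁻¹ * l * g)) := by
    rw [conjOp_apply, ← map_mul, ← map_mul]; congr 1; group
  rw [hl']
  exact (by rw [Commute, SemiconjBy, ← conjOp_mul, h.eq, conjOp_mul] :
    Commute (conjOp ρ g (ρ (g⁻¹ * l * g))) (conjOp ρ g X))

/-- A unit of a finite-dimensional multiplicatively closed subspace has its inverse there. -/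
theorem inv_mem_of_unit {P : Submodule ℂ (Op n)} (h1 : (1 : Op n) ∈ P)
    (hmul : ∀ X ∈ P, ∀ Y ∈ P, X * Y ∈ P) {u : (Op n)ˣ} (hu : (u : Op n) ∈ P) :
    ((u⁻¹ : (Op n)ˣ) : Op n) ∈ P := by
  let T : P →ₗ[ℂ] P := (LinearMap.mulLeft ℂ (u : Op n)).restrict fun X hX => hmul _ hu X hX
  have hT : Function.Injective T := fun X Y h => by
    have h' := congrArg Subtype.val h
    change (u : Op n) * (X : Op n) = (u : Op n) * (Y : Op n) at h'
    exact Subtype.ext ((Units.mul_right_inj u).1 h')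
  obtain ⟨Y, hY⟩ := (LinearMap.injective_iff_surjective (K := ℂ) (V := ↥P) (f := T)).1 hT ⟨1, h1⟩
  have hY' : (u : Op n) * (Y : Op n) = 1 := congrArg Subtype.val hY
  rw [Units.inv_eq_of_mul_eq_one_right hY']
  exact Y.2

variable (ρ L K)

/-- The unit `u` of `cz` induces on `cz` the conjugation by `g`. -/
def Rel (g : G) (u : (Op n)ˣ) : Prop :=
  (u : Op n) ∈ cz ρ L K ∧ ∀ X ∈ cz ρ L K, (u : Op n) * X = conjOp ρ g X * u

variable {ρ L K}

theorem rel_of_mem {l : G} (hl : l ∈ L) : Rel ρ L K l 1 :=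
  ⟨cz_one, fun X hX => by
    rw [conjOp_of_mem_id ρ (hX.2 l hl), Units.val_one, one_mul, mul_one]⟩

theorem Rel.mul [L.Normal] [K.Normal] {g h : G} {u w : (Op n)ˣ} (hu : Rel ρ L K g u)
    (hw : Rel ρ L K h w) : Rel ρ L K (g * h) (u * w) :=
  ⟨cz_mul hu.1 hw.1, fun X hX => by
    rw [Units.val_mul, mul_assoc, hw.2 X hX, ← mul_assoc, hu.2 _ (cz_conj h hX), conjOp_conjOp,
      mul_assoc]⟩

theorem Rel.pow [L.Normal] [K.Normal] {g : G} {u : (Op n)ˣ} (hu : Rel ρ L K g u) :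
    ∀ i : ℕ, Rel ρ L K (g ^ i) (u ^ i)
  | 0 => by simpa using rel_of_mem (ρ := ρ) (K := K) L.one_mem
  | i + 1 => by rw [pow_succ, pow_succ]; exact (hu.pow i).mul hu

theorem exists_rel [L.Normal] [K.Normal] (hLK : L ≤ K) (hL : Homog ρ L) (hK : Homog ρ K) (g : G) :
    ∃ u : (Op n)ˣ, Rel ρ L K g u := by
  obtain ⟨b, hb, hb', hbx⟩ := hL.intertwine g
  obtain ⟨d, hd, hd', hdx⟩ := hK.intertwine g
  refine ⟨b⁻¹ * d, ⟨mul_mem_opSpan (opSpan_mono hLK hb') hd, fun l hl => ?_⟩, fun X hX => ?_⟩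
  · have h1 := hdx l (hLK hl)
    have h2 := hbx l hl
    rw [← Units.eq_inv_mul_iff_mul_eq, ← mul_assoc] at h2
    show ρ l * ((b⁻¹ : (Op n)ˣ) * (d : Op n)) = (b⁻¹ : (Op n)ˣ) * (d : Op n) * ρ l
    rw [mul_assoc, h1, h2]
    simp only [mul_assoc]
    rw [Units.mul_inv_cancel_left]
  · have hkey : ∀ Y ∈ opSpan ρ K, (d : Op n) * Y = conjOp ρ g Y * d := fun Y hY => by
      refine opSpan_induction (p := fun Z => (d : Op n) * Z = conjOp ρ g Z * d) (by simp)
        (fun A B hA hB => by rw [mul_add, map_add, add_mul, hA, hB])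
        (fun c A hA => by rw [mul_smul_comm, map_smul, smul_mul_assoc, hA]) (fun x hx => ?_) hY
      rw [hdx x hx, conjOp_apply, ← map_mul, ← map_mul]
    rw [Units.val_mul, mul_assoc, hkey X hX.1, ← mul_assoc,
      (cz_commute (cz_conj g hX) hb').eq, mul_assoc]

/-- Data attached to the coset representatives of `L` in `K`. -/
theorem exists_coset_basis [Finite G] [L.Normal] [K.Normal] (hLK : L ≤ K) (hL : Homog ρ L) :
    ∃ z : K ⧸ L.subgroupOf K → Op n, (∀ q, z q ∈ cz ρ L K) ∧ (∀ q, IsUnit (z q)) ∧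
      Submodule.span ℂ (Set.range z) = cz ρ L K ∧
      (∀ k : K, ∃ B ∈ opSpan ρ L, ρ k = B * z (QuotientGroup.mk k)) ∧
      (∀ (g : G) (k : K), ∃ c : ℂ, conjOp ρ g (z (QuotientGroup.mk k)) =
        c • z (QuotientGroup.mk ⟨g * k * g⁻¹, ‹K.Normal›.conj_mem _ k.2 g⟩)) := by
  classical
  have := Fintype.ofFinite G
  choose b hb hb' hbx using hL.intertwine
  let z : K ⧸ L.subgroupOf K → Op n := fun q =>
    ((b (q.out : G))⁻¹ : (Op n)ˣ) * ρ (q.out : G)
  have hz : ∀ q, z q ∈ cz ρ L K := fun q => by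
    refine ⟨mul_mem_opSpan (opSpan_mono hLK (hb' _)) (rho_mem_opSpan q.out.2), fun l hl => ?_⟩
    set r : G := (q.out : G) with hr
    show ρ l * (((b r)⁻¹ : (Op n)ˣ) * ρ r) = ((b r)⁻¹ : (Op n)ˣ) * ρ r * ρ l
    have h1 := hbx r l hl
    rw [← Units.eq_inv_mul_iff_mul_eq, ← mul_assoc] at h1
    have h2 : ρ l * (((b r)⁻¹ : (Op n)ˣ) : Op n) =
        (((b r)⁻¹ : (Op n)ˣ) : Op n) * ρ (r * l * r⁻¹) := by
      rw [h1, mul_assoc, Units.mul_inv, mul_one]
    rw [← mul_assoc, h2, mul_assoc, ← map_mul, inv_mul_cancel_right, map_mul, ← mul_assoc]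
  have hzu : ∀ q, IsUnit (z q) := fun q =>
    ((b _)⁻¹).isUnit.mul (IsUnit.of_mul_eq_one (ρ ((q.out : G))⁻¹) (rho_mul_inv ρ _))
  have hdec : ∀ k : K, ∃ B ∈ opSpan ρ L, ρ k = B * z (QuotientGroup.mk k) := by
    intro k
    set q : K ⧸ L.subgroupOf K := QuotientGroup.mk k with hq
    have hmem : (k : G) * (q.out : G)⁻¹ ∈ L := by
      have h1 : q.out⁻¹ * k ∈ L.subgroupOf K := QuotientGroup.eq.1 (QuotientGroup.out_eq' q)
      rw [Subgroup.mem_subgroupOf] at h1
      simpa using (‹L.Normal›.mem_comm_iff).1 h1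
    refine ⟨ρ ((k : G) * (q.out : G)⁻¹) * (b (q.out : G) : Op n),
      mul_mem_opSpan (rho_mem_opSpan hmem) (hb _), ?_⟩
    show ρ (k : G) = ρ ((k : G) * (q.out : G)⁻¹) * (b (q.out : G) : Op n) *
      (((b (q.out : G))⁻¹ : (Op n)ˣ) * ρ (q.out : G))
    rw [mul_assoc, Units.mul_inv_cancel_left, ← map_mul, inv_mul_cancel_right]
  -- averaging over `L`
  let avg : Op n →ₗ[ℂ] Op n := (Nat.card L : ℂ)⁻¹ • ∑ l : L, (conjOp ρ (l : G)).toLinearMap
  have havg : ∀ X, avg X = (Nat.card L : ℂ)⁻¹ • ∑ l : L, conjOp ρ (l : G) X := fun X => by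
    simp [avg]
  have hLne : (Nat.card L : ℂ) ≠ 0 := Nat.cast_ne_zero.2 Nat.card_pos.ne'
  have hfix : ∀ X ∈ cz ρ L K, avg X = X := fun X hX => by
    rw [havg, Finset.sum_congr rfl (g := fun _ => X) fun (l : L) _ => conjOp_of_mem_id ρ (hX.2 l l.2),
      Finset.sum_const,
      Finset.card_univ, ← Nat.card_eq_fintype_card, ← Nat.cast_smul_eq_nsmul ℂ, smul_smul,
      inv_mul_cancel₀ hLne, one_smul]
  have hprod : ∀ B ∈ opSpan ρ L, ∀ Z ∈ cz ρ L K, ∃ c : ℂ, avg (B * Z) = c • Z := by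
    intro B hB Z hZ
    have hmem : avg B ∈ opSpan ρ L := by
      rw [havg]
      exact Submodule.smul_mem _ _ (Submodule.sum_mem _ fun l _ =>
        mul_mem_opSpan (mul_mem_opSpan (rho_mem_opSpan l.2) hB) (rho_mem_opSpan (L.inv_mem l.2)))
    obtain ⟨c, hc⟩ := hL.scalar _ hmem fun x hx => by
      have h1 : conjOp ρ x (avg B) = avg B := by
        rw [havg, map_smul, map_sum]
        congr 1
        exact Fintype.sum_equiv (Equiv.mulLeft (⟨x, hx⟩ : L)) _ _ fun l => by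
          rw [conjOp_conjOp]; rfl
      rw [conjOp_apply] at h1
      show ρ x * avg B = avg B * ρ x
      conv_rhs => rw [← h1, mul_assoc, rho_inv_mul, mul_one]
    refine ⟨c, ?_⟩
    rw [← one_mul Z, ← smul_mul_assoc, ← hc, havg, havg, smul_mul_assoc, Finset.sum_mul]
    congr 1
    refine Finset.sum_congr rfl fun l _ => ?_
    rw [one_mul, conjOp_mul, conjOp_of_mem_id ρ (hZ.2 l l.2)]
  refine ⟨z, hz, hzu, le_antisymm (Submodule.span_le.2 (Set.range_subset_iff.2 hz)) ?_, hdec, ?_⟩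
  · intro X hX
    rw [← hfix X hX]
    refine opSpan_induction (p := fun Y => avg Y ∈ Submodule.span ℂ (Set.range z)) (by simp)
      (fun A B hA hB => by rw [map_add]; exact Submodule.add_mem _ hA hB)
      (fun c A hA => by rw [map_smul]; exact Submodule.smul_mem _ c hA) (fun k hk => ?_) hX.1
    obtain ⟨B, hB, hBk⟩ := hdec ⟨k, hk⟩
    obtain ⟨c, hc⟩ := hprod B hB _ (hz (QuotientGroup.mk (⟨k, hk⟩ : K)))
    show avg (ρ k) ∈ _
    rw [show ρ k = _ from hBk, hc]
    exact Submodule.smul_mem _ _ (Submodule.subset_span ⟨_, rfl⟩)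
  · intro g k
    set q : K ⧸ L.subgroupOf K := QuotientGroup.mk k with hq
    have hgr : (QuotientGroup.mk (⟨g * (q.out : G) * g⁻¹, ‹K.Normal›.conj_mem _ q.out.2 g⟩ : K) :
        K ⧸ L.subgroupOf K) = QuotientGroup.mk ⟨g * k * g⁻¹, ‹K.Normal›.conj_mem _ k.2 g⟩ := by
      rw [QuotientGroup.eq, Subgroup.mem_subgroupOf]
      have h1 : q.out⁻¹ * k ∈ L.subgroupOf K := QuotientGroup.eq.1 (QuotientGroup.out_eq' q)
      rw [Subgroup.mem_subgroupOf] at h1
      simpa [mul_assoc] using ‹L.Normal›.conj_mem _ h1 g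
    obtain ⟨B, hB, hBk⟩ := hdec ⟨g * (q.out : G) * g⁻¹, ‹K.Normal›.conj_mem _ q.out.2 g⟩
    rw [hgr] at hBk
    set z' := z (QuotientGroup.mk ⟨g * k * g⁻¹, ‹K.Normal›.conj_mem _ k.2 g⟩) with hz'
    have heq : conjOp ρ g (z q) = conjOp ρ g (((b (q.out : G))⁻¹ : (Op n)ˣ) : Op n) * B * z' := by
      show conjOp ρ g (((b (q.out : G))⁻¹ : (Op n)ˣ) * ρ (q.out : G)) = _
      rw [conjOp_mul, mul_assoc, conjOp_apply ρ g (ρ _), ← map_mul, ← map_mul]
      exact congrArg _ hBk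
    obtain ⟨c, hc⟩ := hprod _ (mul_mem_opSpan (conj_mem_opSpan g (hb' (q.out : G))) hB) z' (hz _)
    exact ⟨c, by rw [← hfix _ (cz_conj g (hz q)), heq, ← hc]; rfl⟩

end CfsgLib.Chars.Berger
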