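import Cfsg.Agent.Chars.Quasiprimitive.BergerCore

/-!
# Berger's theorem: the refinement step
-/

set_option autoImplicit false

noncomputable section

namespace CfsgLib.Chars.Berger

open Module
open CfsgLib.Chars.Quasiprimitive

variable {G : Type*} [Group G] {n : ℕ} {ρ : Representation ℂ G (Fin n → ℂ)}

/-- Pairwise orthogonal idempotents give independent right ideals. -/
theorem card_mul_le_finrank {P : Submodule ℂ (Op n)} (hmul : ∀ X ∈ P, ∀ Y ∈ P, X * Y ∈ P)
    (S : Finset (Op n)) (hS : ∀ e ∈ S, e ∈ P ∧ e * e = e)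
    (horth : ∀ e ∈ S, ∀ e' ∈ S, e ≠ e' → e * e' = 0) :
    ∑ e ∈ S, finrank ℂ (P.map (LinearMap.mulRight ℂ e)) ≤ finrank ℂ P := by
  classical
  let M : (e : S) → Submodule ℂ (Op n) := fun e => P.map (LinearMap.mulRight ℂ (e : Op n))
  have hM : ∀ (e : S) (X : Op n), X ∈ M e → X ∈ P ∧ X * (e : Op n) = X := by
    rintro e _ ⟨Y, hY, rfl⟩
    refine ⟨hmul Y hY _ (hS e e.2).1, ?_⟩
    rw [LinearMap.mulRight_apply, mul_assoc, (hS e e.2).2]
  have : ∀ e : S, Module.Free ℂ (M e) := fun e => Module.Free.of_divisionRing ℂ (M e)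
  let Φ : ((e : S) → M e) →ₗ[ℂ] P :=
    (∑ e : S, (M e).subtype.comp (LinearMap.proj e)).codRestrict P fun f => by
      simp only [LinearMap.sum_apply, LinearMap.comp_apply, LinearMap.proj_apply,
        Submodule.subtype_apply]
      exact Submodule.sum_mem _ fun e _ => (hM e _ (f e).2).1
  have hΦ : Function.Injective Φ := by
    intro f f' hff
    funext e
    apply Subtype.ext
    have hval : ∀ f : (e : S) → M e, (Φ f : Op n) * (e : Op n) = (f e : Op n) := by
      intro f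
      simp only [Φ, LinearMap.codRestrict_apply, LinearMap.sum_apply, LinearMap.comp_apply,
        LinearMap.proj_apply, Submodule.subtype_apply, Finset.sum_mul]
      rw [Finset.sum_eq_single e]
      · exact (hM e _ (f e).2).2
      · intro b _ hb
        rw [← (hM b _ (f b).2).2, mul_assoc, horth b b.2 e e.2 fun h' => hb (Subtype.ext h'),
          mul_zero]
      · simp
    rw [← hval f, ← hval f', hff]
  have h := LinearMap.finrank_le_finrank_of_injective hΦ
  rw [Module.finrank_pi_fintype ℂ] at h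
  refine le_trans (le_of_eq ?_) h
  exact (Finset.sum_coe_sort S fun e => finrank ℂ (P.map (LinearMap.mulRight ℂ e))).symm

variable {L K : Subgroup G}

theorem Rel.unique [L.Normal] [K.Normal] [Finite G] (hK : Homog ρ K)
    (hdec : ∀ k ∈ K, ∃ B ∈ opSpan ρ L, ∃ Z ∈ cz ρ L K, ρ k = B * Z)
    {g : G} {u w : (Op n)ˣ} (hu : Rel ρ L K g u) (hw : Rel ρ L K g w) :
    ∃ c : ℂ, (w : Op n) = c • (u : Op n) := by
  have hmem : (((u⁻¹ * w : (Op n)ˣ)) : Op n) ∈ cz ρ L K :=
    cz_mul (inv_mem_of_unit cz_one (fun _ hX _ hY => cz_mul hX hY) hu.1) hw.1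
  have hcomm : ∀ X ∈ cz ρ L K, Commute X ((u⁻¹ * w : (Op n)ˣ) : Op n) := fun X hX => by
    have h2 : ((u⁻¹ : (Op n)ˣ) : Op n) * conjOp ρ g X = X * (u⁻¹ : (Op n)ˣ) := by
      rw [← Units.mul_inv_cancel_right (conjOp ρ g X) u, ← hu.2 X hX, mul_assoc (u : Op n),
        Units.inv_mul_cancel_left]
    show X * ((u⁻¹ * w : (Op n)ˣ) : Op n) = ((u⁻¹ * w : (Op n)ˣ) : Op n) * X
    rw [Units.val_mul, mul_assoc, hw.2 X hX, ← mul_assoc ((u⁻¹ : (Op n)ˣ) : Op n), h2, mul_assoc]
  obtain ⟨c, hc⟩ := hK.scalar _ hmem.1 fun k hk => by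
    obtain ⟨B, hB, Z, hZ, hBZ⟩ := hdec k hk
    rw [hBZ]
    exact (cz_commute hmem hB).mul_left (hcomm Z hZ)
  refine ⟨c, ?_⟩
  rw [← mul_one (u : Op n), ← mul_smul_comm, ← hc, ← Units.val_mul, mul_inv_cancel_left]

/-- In a chief factor `K/L` under a supplement `H`, some element of a normal abelian section of
`H` above `L` moves a coset, and its order modulo `L` is prime to the index. -/
theorem exists_moving [Finite G] {H A : Subgroup G} [L.Normal] [K.Normal] (hLK : ChiefStep L K)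
    (hdec : ∀ g : G, ∃ h ∈ H, ∃ k ∈ K, h * k = g) (hcore : H.normalCore = L) (hLA : L < A)
    (hAH : A ≤ H) (hAnorm : ∀ h ∈ H, ∀ a ∈ A, h * a * h⁻¹ ∈ A) {q r : ℕ} [Fact q.Prime]
    [Fact r.Prime] (hKq : IsPGroup q (K.map (QuotientGroup.mk' L)))
    (hAr : IsPGroup r (A.map (QuotientGroup.mk' L))) :
    q ≠ r ∧ ∃ a ∈ A, ∃ k ∈ K, a * k * a⁻¹ * k⁻¹ ∉ L := by
  have hAK : ∀ a ∈ A, ∀ k ∈ K, a * k * a⁻¹ ∈ K := fun a _ k hk => ‹K.Normal›.conj_mem k hk a
  let F : Subgroup G := K ⊓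
    (Subgroup.centralizer ((A.map (QuotientGroup.mk' L) : Subgroup (G ⧸ L)) : Set (G ⧸ L))).comap
      (QuotientGroup.mk' L)
  have hmemF : ∀ x, x ∈ F ↔ x ∈ K ∧ ∀ a ∈ A, a * x * a⁻¹ * x⁻¹ ∈ L := by
    intro x
    simp only [F, Subgroup.mem_inf, Subgroup.mem_comap, Subgroup.mem_centralizer_iff,
      SetLike.mem_coe, Subgroup.mem_map, forall_exists_index, and_imp, forall_apply_eq_imp_iff₂,
      QuotientGroup.mk'_apply]
    refine and_congr_right fun _ => forall₂_congr fun a _ => ?_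
    rw [← QuotientGroup.eq_one_iff (N := L)]
    simp only [QuotientGroup.mk_mul, QuotientGroup.mk_inv]
    rw [mul_inv_eq_one, mul_inv_eq_iff_eq_mul]
  have hFn : F.Normal := by
    refine ⟨fun x hx g => ?_⟩
    obtain ⟨h, hh, k, hk, rfl⟩ := hdec g
    rw [hmemF] at hx
    have hkx : k * x * k⁻¹ ∈ F := by
      rw [hmemF]
      refine ⟨K.mul_mem (K.mul_mem hk hx.1) (K.inv_mem hk), fun a ha => ?_⟩
      have h1 : ∀ y ∈ K, ∃ l ∈ L, k * y * k⁻¹ = l * y := fun y hy =>
        ⟨k * y * k⁻¹ * y⁻¹, hLK.comm (Subgroup.commutator_mem_commutator hk hy), by group⟩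
      obtain ⟨l, hl, hl'⟩ := h1 x hx.1
      rw [hl', show a * (l * x) * a⁻¹ * (l * x)⁻¹ =
        (a * l * a⁻¹) * ((a * x * a⁻¹ * x⁻¹) * l⁻¹) by group]
      exact L.mul_mem (‹L.Normal›.conj_mem l hl a) (L.mul_mem (hx.2 a ha) (L.inv_mem hl))
    have hkx' := (hmemF _).1 hkx
    rw [hmemF, show h * k * x * (h * k)⁻¹ = h * (k * x * k⁻¹) * h⁻¹ by group]
    refine ⟨‹K.Normal›.conj_mem _ hkx'.1 h, fun a ha => ?_⟩
    have h2 := ‹L.Normal›.conj_mem _ (hkx'.2 _ (hAnorm h⁻¹ (H.inv_mem hh) a ha)) h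
    simpa [mul_assoc] using h2
  have hFL : L ≤ F := fun x hx => (hmemF x).2
    ⟨hLK.lt.le hx, fun a _ => L.mul_mem (‹L.Normal›.conj_mem x hx a) (L.inv_mem hx)⟩
  rcases hLK.minimal F hFn hFL inf_le_left with hF | hF
  · refine ⟨?_, ?_⟩
    · rintro rfl
      set Kb := K.map (QuotientGroup.mk' L) with hKb
      set Ab := A.map (QuotientGroup.mk' L) with hAb
      haveI hKbn : Kb.Normal :=
        Subgroup.Normal.map inferInstance _ (QuotientGroup.mk'_surjective L)
      letI : MulAction Ab Kb :=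
        { smul := fun a m => ⟨(a : G ⧸ L) * m * (a : G ⧸ L)⁻¹, hKbn.conj_mem _ m.2 _⟩
          one_smul := fun m => Subtype.ext
            (show ((1 : Ab) : G ⧸ L) * m * ((1 : Ab) : G ⧸ L)⁻¹ = _ by simp)
          mul_smul := fun a b m => Subtype.ext
            (show ((a * b : Ab) : G ⧸ L) * m * ((a * b : Ab) : G ⧸ L)⁻¹ =
              (a : G ⧸ L) * ((b : G ⧸ L) * m * (b : G ⧸ L)⁻¹) * (a : G ⧸ L)⁻¹ by
                push_cast; group) }
      have hone : (1 : Kb) ∈ MulAction.fixedPoints Ab Kb := fun a =>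
        Subtype.ext (show (a : G ⧸ L) * ((1 : Kb) : G ⧸ L) * (a : G ⧸ L)⁻¹ = _ by simp)
      have hKne : Kb ≠ ⊥ := fun hb => hLK.lt.not_ge (by
        rw [hKb, Subgroup.map_eq_bot_iff, QuotientGroup.ker_mk'] at hb
        exact hb)
      obtain ⟨j, hj⟩ := IsPGroup.iff_card.1 hKq
      have hj0 : j ≠ 0 := by
        rintro rfl
        rw [pow_zero] at hj
        exact hKne (Subgroup.card_eq_one.1 hj)
      obtain ⟨⟨b, hbK⟩, hb, hb1⟩ :=
        hAr.exists_fixed_point_of_prime_dvd_card_of_fixed_point Kb (hj ▸ dvd_pow_self q hj0) hone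
      obtain ⟨x, hx, rfl⟩ := hbK
      have hxF : x ∈ F := (hmemF x).2 ⟨hx, fun a ha => by
        have h := congrArg Subtype.val
          (hb ⟨QuotientGroup.mk' L a, Subgroup.mem_map_of_mem _ ha⟩)
        change (a : G ⧸ L) * (x : G ⧸ L) * (a : G ⧸ L)⁻¹ = (x : G ⧸ L) at h
        rw [← QuotientGroup.eq_one_iff (N := L)]
        simp only [QuotientGroup.mk_mul, QuotientGroup.mk_inv, h, mul_inv_cancel]⟩
      rw [hF, ← QuotientGroup.eq_one_iff] at hxF
      exact hb1 (Subtype.ext hxF.symm)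
    · by_contra hcon
      push Not at hcon
      refine hLK.lt.not_ge (hF ▸ fun x hx => (hmemF x).2 ⟨hx, fun a ha => hcon a ha x hx⟩)
  · exfalso
    have hAn : A.Normal := by
      refine ⟨fun a ha g => ?_⟩
      obtain ⟨h, hh, k, hk, rfl⟩ := hdec g
      rw [show h * k * a * (h * k)⁻¹ = h * (k * a * k⁻¹) * h⁻¹ by group]
      refine hAnorm h hh _ ?_
      have h1 := ((hmemF k).1 (hF.symm ▸ hk)).2 a ha
      rw [show k * a * k⁻¹ = (a * k * a⁻¹ * k⁻¹)⁻¹ * a by group]
      exact A.mul_mem (hLA.le (L.inv_mem h1)) ha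
    exact hLA.not_ge (hcore ▸ Subgroup.normal_le_normalCore.2 hAH)

open Classical in
/-- **The refinement step.** -/
theorem exists_inducing_above [Finite G] [Group.IsSolvable G] (hρ : ρ.IsIrreducible)
    {H : Subgroup G} [L.Normal] [K.Normal] (hH : H ≠ ⊤) (hmax : IsCoatom H)
    (hcore : H.normalCore = L) (hLK : ChiefStep L K) (hL : Homog ρ L) (hK : Homog ρ K)
    (W : Submodule ℂ (Fin n → ℂ)) (hW0 : W ≠ ⊥) (hWinv : ∀ h ∈ H, ∀ w ∈ W, ρ h w ∈ W)
    (hdim : H.index * finrank ℂ W ≤ n) :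
    ∃ (J : Subgroup G) (U : Submodule ℂ (Fin n → ℂ)), K ≤ J ∧ J ≠ ⊤ ∧ U ≠ ⊥ ∧
      (∀ g ∈ J, ∀ u ∈ U, ρ g u ∈ U) ∧ J.index * finrank ℂ U ≤ n := by
  haveI := Fintype.ofFinite G
  have hn : 0 < n := CfsgLib.CharExtend.pos_of_irreducible hρ
  have hirr := (CfsgLib.Chars.isIrreducible_iff_forall.1 hρ).2
  have hLH : L ≤ H := hcore ▸ Subgroup.normalCore_le H
  have hKH : ¬ K ≤ H := fun h =>
    hLK.lt.not_ge (hcore ▸ Subgroup.normal_le_normalCore.2 h)
  have hHK : H ⊔ K = ⊤ := hmax.2 _ (left_lt_sup.2 hKH)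
  have hHKdec : ∀ g : G, ∃ h ∈ H, ∃ k ∈ K, h * k = g := fun g => by
    have hg : g ∈ (↑(H ⊔ K) : Set G) := by rw [hHK]; exact Subgroup.mem_top g
    rw [Subgroup.mul_normal] at hg
    exact Set.mem_mul.1 hg
  have hKHL : K ⊓ H = L := by
    refine le_antisymm ?_ (le_inf hLK.lt.le hLH)
    have hn' : (K ⊓ H).Normal := by
      refine ⟨fun x hx g => ?_⟩
      obtain ⟨h, hh, k, hk, rfl⟩ := hHKdec g
      have hc : k * x * k⁻¹ * x⁻¹ ∈ L :=
        hLK.comm (Subgroup.commutator_mem_commutator hk hx.1)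
      have hin : k * x * k⁻¹ ∈ K ⊓ H := by
        rw [show k * x * k⁻¹ = (k * x * k⁻¹ * x⁻¹) * x by group]
        exact Subgroup.mul_mem _ ⟨hLK.lt.le hc, hLH hc⟩ hx
      rw [show h * k * x * (h * k)⁻¹ = h * (k * x * k⁻¹) * h⁻¹ by group]
      exact ⟨‹K.Normal›.conj_mem _ hin.1 h, H.mul_mem (H.mul_mem hh hin.2) (H.inv_mem hh)⟩
    exact (Subgroup.normal_le_normalCore.2 inf_le_right).trans hcore.le
  set v := H.index with hv
  have hv1 : v ≠ 1 := fun h => hH (Subgroup.index_eq_one.1 h)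
  have hv0 : v ≠ 0 := Subgroup.index_ne_zero_of_finite
  have hrel : L.relIndex K = v := by
    have h1 := card_eq_inf_mul_index hHK
    rw [hKHL] at h1
    have h2 : Nat.card L * L.relIndex K = Nat.card K := by
      rw [← Subgroup.relIndex_bot_left, ← Subgroup.relIndex_bot_left K,
        Subgroup.relIndex_mul_relIndex _ _ _ bot_le hLK.lt.le]
    exact Nat.eq_of_mul_eq_mul_left Nat.card_pos (h2.trans h1)
  obtain ⟨z, hz, hzu, hspan, hzdec, hzconj⟩ := exists_coset_basis hLK.lt.le hL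
  set Z := cz ρ L K with hZ
  have hdec' : ∀ k ∈ K, ∃ B ∈ opSpan ρ L, ∃ X ∈ Z, ρ k = B * X := fun k hk => by
    obtain ⟨B, hB, hBk⟩ := hzdec ⟨k, hk⟩
    exact ⟨B, hB, _, hz _, hBk⟩
  have hLW : ∀ B ∈ opSpan ρ L, ∀ w ∈ W, B w ∈ W := fun B hB w hw =>
    opSpan_induction (p := fun Y => Y w ∈ W) W.zero_mem
      (fun X Y hX hY => W.add_mem hX hY) (fun c X hX => W.smul_mem c hX)
      (fun l hl => hWinv l (hLH hl) w hw) hB
  -- `ρ(K)` maps `app P W` into itself for a left ideal `P` of `Z`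
  have hKapp : ∀ P : Submodule ℂ (Op n), P ≤ Z → (∀ X ∈ Z, ∀ Y ∈ P, X * Y ∈ P) →
      ∀ k ∈ K, ∀ x ∈ app P W, ρ k x ∈ app P W := by
    intro P hPZ hPl k hk x hx
    obtain ⟨B, hB, X, hX, hBX⟩ := hdec' k hk
    have hle : app P W ≤ (app P W).comap (ρ k) := app_le.2 fun Y hY w hw => by
      rw [Submodule.mem_comap, ← Module.End.mul_apply, hBX, mul_assoc,
        (cz_commute (cz_mul hX (hPZ hY)) hB).eq, Module.End.mul_apply]
      exact apply_mem_app (hPl X hX Y hY) (hLW B hB w hw)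
    exact hle hx
  have hHapp : ∀ (P : Submodule ℂ (Op n)) (h : G), h ∈ H → ∀ P' : Submodule ℂ (Op n),
      (∀ X ∈ P, conjOp ρ h X ∈ P') → ∀ x ∈ app P W, ρ h x ∈ app P' W := by
    intro P h hh P' hPP' x hx
    have hle : app P W ≤ (app P' W).comap (ρ h) := app_le.2 fun Y hY w hw => by
      rw [Submodule.mem_comap, ← conjOp_apply_apply]
      exact apply_mem_app (hPP' Y hY) (hWinv h hh w hw)
    exact hle hx
  have htop : app Z W = ⊤ := by
    refine (hirr (app Z W) fun g x hx => ?_).resolve_left fun hb => hW0 ?_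
    · obtain ⟨h, hh, k, hk, rfl⟩ := hHKdec g
      rw [map_mul, Module.End.mul_apply]
      exact hHapp Z h hh Z (fun X hX => cz_conj h hX) _
        (hKapp Z le_rfl (fun X hX Y hY => cz_mul hX hY) k hk x hx)
    · rw [eq_bot_iff, ← hb]
      exact fun w hw => by simpa using apply_mem_app (cz_one (ρ := ρ) (L := L) (K := K)) hw
  have hZd : finrank ℂ Z ≤ v := by
    rw [← hrel, ← hspan]
    haveI := Fintype.ofFinite (K ⧸ L.subgroupOf K)
    refine (finrank_range_le_card z).trans_eq ?_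
    rw [← Nat.card_eq_fintype_card]
    rfl
  have hWpos : 0 < finrank ℂ W := by
    rw [Nat.pos_iff_ne_zero, Ne, Submodule.finrank_eq_zero]
    exact hW0
  have hn_le : n ≤ finrank ℂ Z * finrank ℂ W := by
    have h := finrank_app_le Z W
    rwa [htop, finrank_top, Module.finrank_fin_fun] at h
  have hZv : finrank ℂ Z = v :=
    le_antisymm hZd (Nat.le_of_mul_le_mul_right (hdim.trans hn_le) hWpos)
  have hLI : LinearIndependent ℂ z := by
    haveI := Fintype.ofFinite (K ⧸ L.subgroupOf K)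
    rw [linearIndependent_iff_card_eq_finrank_span, Set.finrank, hspan, hZv, ← hrel,
      ← Nat.card_eq_fintype_card]
    rfl
  have hzne : ∀ q q', q ≠ q' → ∀ c : ℂ, z q ≠ c • z q' := fun q q' hqq c h => by
    have h2 := linearIndependent_iff'.1 hLI {q, q'} (fun i => if i = q then 1 else -c) (by
      rw [Finset.sum_pair hqq, if_pos rfl, if_neg hqq.symm, one_smul, neg_smul, ← h,
        add_neg_cancel]) q (by simp)
    simp at h2
  rcases hLH.eq_or_lt with hHL | hLHlt
  · -- the normal maximal subgroup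
    exfalso
    subst hHL
    obtain ⟨k₀, hk₀, hk₀L⟩ := SetLike.exists_of_lt hLK.lt
    set q₀ : K ⧸ L.subgroupOf K := QuotientGroup.mk ⟨k₀, hk₀⟩
    let C : Subgroup G :=
      { carrier := {g | Commute (ρ g) (z q₀)}
        one_mem' := by show Commute (ρ 1) _; rw [map_one]; exact Commute.one_left _
        mul_mem' := fun {a b} ha hb => by
          show Commute (ρ (a * b)) _; rw [map_mul]; exact Commute.mul_left ha hb
        inv_mem' := fun {a} ha => by
          show ρ a⁻¹ * z q₀ = z q₀ * ρ a⁻¹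
          have h : ρ a * z q₀ = z q₀ * ρ a := ha
          have h' := congrArg (fun Y => ρ a⁻¹ * (Y * ρ a⁻¹)) h
          simp only [mul_assoc, rho_mul_inv, mul_one, rho_inv_mul_cancel] at h'
          exact h'.symm }
    have hC : C = ⊤ := by
      refine hmax.2 _ (lt_of_le_of_ne (fun l hl => (hz q₀).2 l hl) fun h => hk₀L ?_)
      rw [h]
      obtain ⟨B, hB, hBk⟩ := hzdec ⟨k₀, hk₀⟩
      show Commute (ρ k₀) (z q₀)
      rw [show ρ k₀ = B * z q₀ from hBk]
      exact (cz_commute (hz q₀) hB).mul_left (Commute.refl _)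
    obtain ⟨c, hc⟩ := CfsgLib.Chars.Induced.exists_eq_smul_one_of_commute ρ hρ (z q₀) fun g =>
      ((hC.symm ▸ Subgroup.mem_top g : g ∈ C) : Commute (ρ g) (z q₀)).eq.symm
    obtain ⟨B, hB, hB1⟩ := hzdec 1
    set q₁ : K ⧸ L.subgroupOf K := QuotientGroup.mk 1
    obtain ⟨d, hd⟩ := hL.scalar B hB fun l hl => by
      have hz1 : IsUnit (z q₁) := hzu _
      have h1 : ρ ((1 : K) : G) = B * z q₁ := hB1
      rw [OneMemClass.coe_one, map_one] at h1
      show ρ l * B = B * ρ l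
      apply hz1.mul_left_injective
      show ρ l * B * z q₁ = B * ρ l * z q₁
      rw [mul_assoc, ← h1, mul_one, mul_assoc, ((hz q₁).2 l hl).eq, ← mul_assoc, ← h1, one_mul]
    have h1 : (1 : Op n) = d • z q₁ := by
      rw [← smul_one_mul, ← hd, ← hB1, OneMemClass.coe_one, map_one]
    refine hzne q₀ q₁ (fun h => hk₀L ?_) (c * d) ?_
    · have h' := QuotientGroup.eq.1 h
      simpa [Subgroup.mem_subgroupOf] using h'
    · rw [hc, h1, smul_smul]
  -- an abelian normal section of `H` above `L`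
  haveI : (L.subgroupOf H).Normal := inferInstance
  obtain ⟨A₀, hA₀⟩ := exists_chiefStep (L.subgroupOf H)
    (fun h => hLHlt.not_ge (Subgroup.subgroupOf_eq_top.1 h))
    (inferInstance : Group.IsSolvable (↥H ⧸ L.subgroupOf H))
  haveI := hA₀.normal
  set A := A₀.map H.subtype with hA
  have hAH : A ≤ H := Subgroup.map_subtype_le A₀
  have hLA : L < A := by
    refine lt_of_le_not_ge (fun l hl => ⟨⟨l, hLH hl⟩, hA₀.lt.le (by
      rwa [Subgroup.mem_subgroupOf]), rfl⟩) fun h => hA₀.lt.not_ge fun x hx => ?_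
    rw [Subgroup.mem_subgroupOf]
    exact h ⟨x, hx, rfl⟩
  have hAnorm : ∀ h ∈ H, ∀ a ∈ A, h * a * h⁻¹ ∈ A := by
    rintro h hh _ ⟨a, ha, rfl⟩
    exact ⟨⟨h, hh⟩ * a * ⟨h, hh⟩⁻¹, hA₀.normal.conj_mem a ha _, rfl⟩
  have hAcomm : ∀ a ∈ A, ∀ b ∈ A, a * b * a⁻¹ * b⁻¹ ∈ L := by
    rintro _ ⟨a, ha, rfl⟩ _ ⟨b, hb, rfl⟩
    have h := hA₀.comm (Subgroup.commutator_mem_commutator ha hb)
    rw [Subgroup.mem_subgroupOf, commutatorElement_def] at h
    simpa using h
  obtain ⟨r, hr, hrdvd⟩ := Nat.exists_prime_and_dvd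
    (fun h => hA₀.lt.not_ge (Subgroup.relIndex_eq_one.1 h) :
      (L.subgroupOf H).relIndex A₀ ≠ 1)
  haveI : Fact r.Prime := ⟨hr⟩
  have hA₀r := hA₀.isPGroup hrdvd
  obtain ⟨q, hq, hqdvd⟩ := Nat.exists_prime_and_dvd hv1
  haveI : Fact q.Prime := ⟨hq⟩
  have hKq := hLK.isPGroup (p := q) (hrel.symm ▸ hqdvd)
  have hArpow : ∀ a ∈ A, ∃ i, a ^ r ^ i ∈ L := by
    rintro _ ⟨a, ha, rfl⟩
    obtain ⟨i, hi⟩ := hA₀r ⟨_, Subgroup.mem_map_of_mem (QuotientGroup.mk' (L.subgroupOf H)) ha⟩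
    refine ⟨i, ?_⟩
    have h := congrArg Subtype.val hi
    simp only [SubgroupClass.coe_pow, OneMemClass.coe_one, QuotientGroup.mk'_apply] at h
    rw [← QuotientGroup.mk_pow, QuotientGroup.eq_one_iff, Subgroup.mem_subgroupOf] at h
    simpa using h
  have hAr : IsPGroup r (A.map (QuotientGroup.mk' L)) := by
    rintro ⟨_, a, ha, rfl⟩
    obtain ⟨i, hi⟩ := hArpow a ha
    exact ⟨i, Subtype.ext (by
      rw [SubgroupClass.coe_pow, OneMemClass.coe_one, ← map_pow]
      exact (QuotientGroup.eq_one_iff _).2 hi)⟩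
  obtain ⟨hqr, a₁, ha₁, k₁, hk₁, hmove⟩ :=
    exists_moving hLK hHKdec hcore hLA hAH hAnorm hKq hAr
  obtain ⟨j, hj⟩ := IsPGroup.iff_card.1 hKq
  rw [← Subgroup.relIndex_ker, QuotientGroup.ker_mk', hrel] at hj
  -- two units attached to elements of `A` commute
  have hne1 : (1 : Op n) ≠ 0 := by
    intro h
    haveI : NeZero n := ⟨hn.ne'⟩
    have h' := congrFun (LinearMap.congr_fun h (Pi.single (0 : Fin n) 1)) 0
    simp at h'
  haveI : Nontrivial (Op n) := ⟨⟨1, 0, hne1⟩⟩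
  have hcom : ∀ a ∈ A, ∀ b ∈ A, ∀ u w : (Op n)ˣ, Rel ρ L K a u → Rel ρ L K b w →
      (u : Op n) * w = (w : Op n) * u := by
    intro a ha b hb u w hu hw
    have hwu : Rel ρ L K (a * b) (w * u) := by
      have h := (rel_of_mem (ρ := ρ) (K := K) (hAcomm a ha b hb)).mul (hw.mul hu)
      rwa [one_mul, show a * b * a⁻¹ * b⁻¹ * (b * a) = a * b by group] at h
    obtain ⟨c, hc⟩ := hwu.unique hK hdec' (hu.mul hw)
    rw [Units.val_mul, Units.val_mul] at hc
    -- `c` has order dividing a power of `r`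
    obtain ⟨i, hi⟩ := hArpow a ha
    obtain ⟨s, hs⟩ := (rel_of_mem (ρ := ρ) (K := K) hi).unique hK hdec' (hu.pow (r ^ i))
    rw [Units.val_pow_eq_pow_val, Units.val_one] at hs
    have hpow : ∀ N : ℕ, (u : Op n) ^ N * w = c ^ N • ((w : Op n) * (u : Op n) ^ N) := by
      intro N
      induction N with
      | zero => simp
      | succ N ih =>
        rw [pow_succ, mul_assoc, hc, mul_smul_comm, ← mul_assoc, ih, smul_mul_assoc, smul_smul,
          mul_assoc, ← pow_succ']
    have hcr : c ^ r ^ i = 1 := by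
      have h := hpow (r ^ i)
      rw [hs, smul_mul_assoc, one_mul, mul_smul_comm, mul_one, smul_smul] at h
      have hs0 : s ≠ 0 := by
        rintro rfl
        rw [zero_smul] at hs
        exact (u.isUnit.pow _).ne_zero hs
      have h' := smul_left_injective ℂ w.ne_zero h
      exact (mul_eq_right₀ hs0).1 h'.symm
    -- `c` has order dividing the dimension of `Z`
    let D : (Z →ₗ[ℂ] Z) →* ℂ := LinearMap.det (M := ↥Z) (A := ℂ)
    let Lm : ∀ Y : Op n, Y ∈ Z → (Z →ₗ[ℂ] Z) := fun Y hY =>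
      (LinearMap.mulLeft ℂ Y).restrict fun X hX => cz_mul hY hX
    have hLm : ∀ (Y : Op n) (hY : Y ∈ Z) (X : Z), (Lm Y hY X : Op n) = Y * X := fun _ _ _ => rfl
    have hdet0 : ∀ y : (Op n)ˣ, ∀ hy : (y : Op n) ∈ Z, D (Lm (y : Op n) hy) ≠ 0 := by
      intro y hy h0
      have hy' := inv_mem_of_unit (cz_one (ρ := ρ) (L := L) (K := K))
        (fun _ hX _ hY => cz_mul hX hY) hy
      have h1 : Lm y hy * Lm _ hy' = 1 := LinearMap.ext fun X => Subtype.ext (by
        show (y : Op n) * (((y⁻¹ : (Op n)ˣ) : Op n) * (X : Op n)) = (X : Op n)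
        rw [Units.mul_inv_cancel_left])
      have h2 := congrArg D h1
      rw [map_mul, h0, zero_mul, map_one] at h2
      exact zero_ne_one h2
    have hcv : c ^ v = 1 := by
      have h1 : Lm u hu.1 * Lm w hw.1 = c • (Lm w hw.1 * Lm u hu.1) :=
        LinearMap.ext fun X => Subtype.ext (by
          show (u : Op n) * ((w : Op n) * (X : Op n)) =
            c • ((w : Op n) * ((u : Op n) * (X : Op n)))
          rw [← mul_assoc, hc, smul_mul_assoc, mul_assoc])
      have h2 := congrArg D h1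
      have h3 : D (c • (Lm w hw.1 * Lm u hu.1)) = c ^ v * D (Lm w hw.1 * Lm u hu.1) := by
        haveI : Module.Free ℂ Z := Module.Free.of_divisionRing ℂ Z
        rw [← hZv]; exact LinearMap.det_smul c _
      rw [h3, map_mul, map_mul, mul_comm (D (Lm w hw.1))] at h2
      exact (mul_eq_right₀ (mul_ne_zero (hdet0 u hu.1) (hdet0 w hw.1))).1 h2.symm
    have hc1 : c = 1 := by
      have hcop : Nat.Coprime (q ^ j) (r ^ i) :=
        ((Nat.coprime_primes hq hr).2 hqr).pow j i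
      have h := pow_gcd_eq_one.2 ⟨(hj ▸ hcv : c ^ q ^ j = 1), hcr⟩
      rwa [hcop, pow_one] at h
    rw [hc, hc1, one_smul]
  -- the algebra they span
  set S : Set (Op n) := {X | ∃ a ∈ A, ∃ u : (Op n)ˣ, Rel ρ L K a u ∧ (u : Op n) = X} with hS
  set Bs : Submodule ℂ (Op n) := Submodule.span ℂ S with hBs
  have hBZ : Bs ≤ Z := Submodule.span_le.2 fun X ⟨a, _, u, hu, hX⟩ => hX ▸ hu.1
  have hB1 : (1 : Op n) ∈ Bs :=
    Submodule.subset_span ⟨1, A.one_mem, 1, rel_of_mem L.one_mem, rfl⟩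
  have hBcomm : ∀ X ∈ Bs, ∀ Y ∈ Bs, Commute X Y := by
    intro X hX
    induction hX using Submodule.span_induction with
    | mem _ h =>
      obtain ⟨a, ha, u, hu, rfl⟩ := h
      intro Y hY
      induction hY using Submodule.span_induction with
      | mem _ h => obtain ⟨b, hb, w, hw, rfl⟩ := h; exact hcom a ha b hb u w hu hw
      | zero => exact Commute.zero_right _
      | add _ _ _ _ h1 h2 => exact h1.add_right h2
      | smul c _ _ h1 => exact h1.smul_right c
    | zero => exact fun Y _ => Commute.zero_left Y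
    | add _ _ _ _ h1 h2 => exact fun Y hY => (h1 Y hY).add_left (h2 Y hY)
    | smul c _ _ h1 => exact fun Y hY => (h1 Y hY).smul_left c
  have hBmul : ∀ X ∈ Bs, ∀ Y ∈ Bs, X * Y ∈ Bs := by
    intro X hX
    induction hX using Submodule.span_induction with
    | mem _ h =>
      obtain ⟨a, ha, u, hu, rfl⟩ := h
      intro Y hY
      induction hY using Submodule.span_induction with
      | mem _ h =>
        obtain ⟨b, hb, w, hw, rfl⟩ := h
        exact Submodule.subset_span ⟨a * b, A.mul_mem ha hb, u * w, hu.mul hw, rfl⟩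
      | zero => rw [mul_zero]; exact Submodule.zero_mem _
      | add _ _ _ _ h1 h2 => rw [mul_add]; exact Submodule.add_mem _ h1 h2
      | smul c _ _ h1 => rw [mul_smul_comm]; exact Submodule.smul_mem _ c h1
    | zero =>
      intro Y _
      rw [zero_mul]
      exact Submodule.zero_mem _
    | add _ _ _ _ h1 h2 =>
      intro Y hY
      rw [add_mul]
      exact Submodule.add_mem _ (h1 Y hY) (h2 Y hY)
    | smul c _ _ h1 =>
      intro Y hY
      rw [smul_mul_assoc]
      exact Submodule.smul_mem _ c (h1 Y hY)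
  have hBconj : ∀ h ∈ H, ∀ X ∈ Bs, conjOp ρ h X ∈ Bs := by
    intro h hh X hX
    induction hX using Submodule.span_induction with
    | zero => rw [map_zero]; exact Submodule.zero_mem _
    | add _ _ _ _ h1 h2 => rw [map_add]; exact Submodule.add_mem _ h1 h2
    | smul c _ _ h1 => rw [map_smul]; exact Submodule.smul_mem _ c h1
    | mem _ hm =>
      obtain ⟨a, ha, u, hu, rfl⟩ := hm
      let u' : (Op n)ˣ := ⟨conjOp ρ h u, conjOp ρ h (u⁻¹ : (Op n)ˣ), by
        rw [← conjOp_mul, Units.mul_inv, conjOp_one], by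
        rw [← conjOp_mul, Units.inv_mul, conjOp_one]⟩
      refine Submodule.subset_span ⟨h * a * h⁻¹, hAnorm h hh a ha, u', ⟨cz_conj h hu.1,
        fun X hX => ?_⟩, rfl⟩
      show conjOp ρ h u * X = conjOp ρ (h * a * h⁻¹) X * conjOp ρ h u
      have h1 := congrArg (conjOp ρ h) (hu.2 _ (cz_conj h⁻¹ hX))
      rw [conjOp_mul, conjOp_mul, conjOp_conjOp, conjOp_conjOp, conjOp_conjOp, mul_inv_cancel] at h1
      have h1X : conjOp ρ 1 X = X := by simp [conjOp_apply]
      rwa [h1X] at h1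
  -- a nonscalar idempotent
  obtain ⟨e, heB, hee, he0, he1⟩ : ∃ e ∈ Bs, e * e = e ∧ e ≠ 0 ∧ e ≠ 1 := by
    obtain ⟨u, hu⟩ := exists_rel hLK.lt.le hL hK a₁
    obtain ⟨i, hi⟩ := hArpow a₁ ha₁
    obtain ⟨s, hs⟩ := (rel_of_mem (ρ := ρ) (K := K) hi).unique hK hdec' (hu.pow (r ^ i))
    rw [Units.val_pow_eq_pow_val, Units.val_one] at hs
    set N := r ^ i with hN
    have hN0 : N ≠ 0 := pow_ne_zero i hr.ne_zero
    haveI : NeZero n := ⟨hn.ne'⟩
    obtain ⟨ζ, hζ⟩ := Module.End.exists_eigenvalue (u : Op n)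
    obtain ⟨x, hx⟩ := hζ.exists_hasEigenvector
    have hζ0 : ζ ≠ 0 := by
      rintro rfl
      apply hx.2
      have h := congrArg ((u⁻¹ : (Op n)ˣ) : Op n) hx.apply_eq_smul
      rwa [zero_smul, map_zero, ← Module.End.mul_apply, Units.inv_mul, Module.End.one_apply] at h
    set y : Op n := ζ⁻¹ • (u : Op n) with hy
    have hyx : y x = x := by
      rw [hy, LinearMap.smul_apply, hx.apply_eq_smul, smul_smul, inv_mul_cancel₀ hζ0, one_smul]
    have hyx' : ∀ j : ℕ, (y ^ j) x = x := fun j => by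
      induction j with
      | zero => rfl
      | succ j ih => rw [pow_succ, Module.End.mul_apply, hyx, ih]
    have hyN : y ^ N = 1 := by
      have h1 : y ^ N = (ζ⁻¹ ^ N * s) • (1 : Op n) := by rw [hy, smul_pow, hs, smul_smul]
      have h2 := congrArg (fun Y : Op n => Y x) h1
      simp only [hyx', LinearMap.smul_apply, Module.End.one_apply] at h2
      have h3 : ((1 : ℂ) - ζ⁻¹ ^ N * s) • x = 0 := by rw [sub_smul, one_smul, ← h2, sub_self]
      have h4 := (smul_eq_zero.1 h3).resolve_right hx.2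
      rw [h1, ← sub_eq_zero.1 h4, one_smul]
    have hyB : y ∈ Bs :=
      Submodule.smul_mem _ _ (Submodule.subset_span ⟨a₁, ha₁, u, hu, rfl⟩)
    have hyjB : ∀ j : ℕ, y ^ j ∈ Bs := fun j => by
      induction j with
      | zero => rwa [pow_zero]
      | succ j ih => rw [pow_succ]; exact hBmul _ ih _ hyB
    set e : Op n := (N : ℂ)⁻¹ • ∑ j ∈ Finset.range N, y ^ j with he
    have hye : y * e = e := by
      rw [he, mul_smul_comm]
      congr 1
      have h := mul_geom_sum y N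
      rw [hyN, sub_self, sub_mul, one_mul, sub_eq_zero] at h
      exact h
    have hyje : ∀ j : ℕ, y ^ j * e = e := fun j => by
      induction j with
      | zero => simp
      | succ j ih => rw [pow_succ, mul_assoc, hye, ih]
    have hNC : (N : ℂ) ≠ 0 := Nat.cast_ne_zero.2 hN0
    have hex : e x = x := by
      rw [he, LinearMap.smul_apply, LinearMap.sum_apply, Finset.sum_congr rfl fun j _ => hyx' j,
        Finset.sum_const, Finset.card_range, ← Nat.cast_smul_eq_nsmul ℂ, smul_smul,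
        inv_mul_cancel₀ hNC, one_smul]
    refine ⟨e, Submodule.smul_mem _ _ (Submodule.sum_mem _ fun j _ => hyjB j), ?_, ?_, ?_⟩
    · conv_lhs => arg 1; rw [he]
      rw [smul_mul_assoc, Finset.sum_mul, Finset.sum_congr rfl fun j _ => hyje j,
        Finset.sum_const, Finset.card_range, ← Nat.cast_smul_eq_nsmul ℂ, smul_smul,
        inv_mul_cancel₀ hNC, one_smul]
    · intro h
      rw [h, LinearMap.zero_apply] at hex
      exact hx.2 hex.symm
    · intro h
      rw [h, mul_one] at hye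
      -- `u` would be scalar, so conjugation by `a₁` trivial on `Z`
      have hu1 : (u : Op n) = ζ • 1 := by
        rw [← hye, hy, smul_smul, mul_inv_cancel₀ hζ0, one_smul]
      set kk : K := ⟨k₁, hk₁⟩
      obtain ⟨c, hc⟩ := hzconj a₁ kk
      have h5 := hu.2 _ (hz (QuotientGroup.mk kk))
      rw [hu1, smul_mul_assoc, one_mul, mul_smul_comm, mul_one, hc] at h5
      refine hzne _ _ (fun h6 => hmove ?_) c (smul_right_injective _ hζ0 h5)
      have h7 := QuotientGroup.eq.1 h6.symm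
      rw [Subgroup.mem_subgroupOf] at h7
      have h8 := ‹L.Normal›.mem_comm_iff.1 h7
      simpa [kk, mul_assoc] using L.inv_mem h8
  -- a minimal idempotent below it
  have hex : ∃ d, ∃ f ∈ Bs, f * f = f ∧ f ≠ 0 ∧ f * e = f ∧ finrank ℂ (LinearMap.range f) = d :=
    ⟨_, e, heB, hee, he0, hee, rfl⟩
  obtain ⟨f, hfB, hff, hf0, hfe, hfd⟩ := Nat.find_spec hex
  have hprim : ∀ g ∈ Bs, g * g = g → f * g = 0 ∨ f * g = f := by
    intro g hgB hgg
    by_contra hcon
    push Not at hcon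
    have hgf : g * f = f * g := (hBcomm g hgB f hfB).eq
    have hidem : f * g * (f * g) = f * g := by
      rw [mul_assoc, ← mul_assoc g, hgf, mul_assoc f g g, hgg, ← mul_assoc, hff]
    have hbelow : f * g * e = f * g := by
      rw [mul_assoc, (hBcomm g hgB e heB).eq, ← mul_assoc, hfe]
    have hle := Nat.find_min' hex ⟨f * g, hBmul f hfB g hgB, hidem, hcon.1, hbelow, rfl⟩
    have hsub : LinearMap.range (f * g) ≤ LinearMap.range f := by
      rintro _ ⟨x, rfl⟩
      exact ⟨g x, rfl⟩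
    have heq := Submodule.eq_of_le_of_finrank_le hsub (hfd.trans_le hle)
    refine hcon.2 ?_
    have h1 : f * g * f = f := LinearMap.ext fun x => by
      obtain ⟨x', hx'⟩ := (SetLike.ext_iff.1 heq (f x)).2 ⟨x, rfl⟩
      rw [Module.End.mul_apply, ← hx', ← Module.End.mul_apply, hidem]
    rwa [mul_assoc, hgf, ← mul_assoc, hff] at h1
  have hfZ : f ∈ Z := hBZ hfB
  have hf1 : f ≠ 1 := fun h => he1 (by rw [h, one_mul] at hfe; exact hfe)
  -- the orbit
  let O : Finset (Op n) := Finset.univ.image fun h : H => conjOp ρ (h : G) f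
  have hO : ∀ g ∈ O, g ∈ Bs ∧ g * g = g ∧ ∀ x ∈ Bs, x * x = x → g * x = 0 ∨ g * x = g := by
    intro g hg
    obtain ⟨h, -, rfl⟩ := Finset.mem_image.1 hg
    refine ⟨hBconj h h.2 f hfB, by rw [← conjOp_mul, hff], fun x hx hxx => ?_⟩
    have hx' : x = conjOp ρ (h : G) (conjOp ρ (h : G)⁻¹ x) := by
      rw [conjOp_conjOp, mul_inv_cancel]; simp [conjOp_apply]
    rcases hprim _ (hBconj _ (H.inv_mem h.2) x hx) (by rw [← conjOp_mul, hxx]) with h1 | h1
    · left; rw [hx', ← conjOp_mul, h1, map_zero]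
    · right; rw [hx', ← conjOp_mul, h1]
  have hOorth : ∀ g ∈ O, ∀ g' ∈ O, g ≠ g' → g * g' = 0 := by
    intro g hg g' hg' hne
    rcases (hO g hg).2.2 g' (hO g' hg').1 (hO g' hg').2.1 with h | h
    · exact h
    · rcases (hO g' hg').2.2 g (hO g hg).1 (hO g hg).2.1 with h' | h'
      · rw [(hBcomm g (hO g hg).1 g' (hO g' hg').1).eq, h']
      · exact absurd (h ▸ (hBcomm g (hO g hg).1 g' (hO g' hg').1).eq.trans h') hne
  set P : Submodule ℂ (Op n) := Z.map (LinearMap.mulRight ℂ f) with hP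
  have hPZ : P ≤ Z := by rintro _ ⟨X, hX, rfl⟩; exact cz_mul hX hfZ
  have hPl : ∀ X ∈ Z, ∀ Y ∈ P, X * Y ∈ P := by
    rintro X hX _ ⟨Y, hY, rfl⟩
    exact ⟨X * Y, cz_mul hX hY, by simp [mul_assoc]⟩
  have hPconj : ∀ h : G, ∀ X ∈ P, conjOp ρ h X ∈ Z.map (LinearMap.mulRight ℂ (conjOp ρ h f)) := by
    rintro h _ ⟨X, hX, rfl⟩
    exact ⟨conjOp ρ h X, cz_conj h hX, by simp [conjOp_mul]⟩
  set U := app P W with hU
  have hOcount : O.card * finrank ℂ P ≤ v := by
    rw [← hZv]
    refine le_trans ?_ (card_mul_le_finrank (fun X hX Y hY => cz_mul hX hY) O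
      (fun g hg => ⟨hBZ (hO g hg).1, (hO g hg).2.1⟩) hOorth)
    rw [← smul_eq_mul, ← Finset.sum_const]
    refine Finset.sum_le_sum fun g hg => ?_
    obtain ⟨h, -, rfl⟩ := Finset.mem_image.1 hg
    rw [← (conjOp ρ (h : G)).finrank_map_eq P]
    exact Submodule.finrank_mono (by rintro _ ⟨X, hX, rfl⟩; exact hPconj h X hX)
  -- proper right ideals
  have hlt : ∀ g ∈ Z, g * g = g → g ≠ 1 → finrank ℂ (Z.map (LinearMap.mulRight ℂ g)) < v := by
    intro g hg hgg hg1
    rw [← hZv]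
    refine Submodule.finrank_lt_finrank_of_lt (lt_of_le_of_ne ?_ fun h => hg1 ?_)
    · rintro _ ⟨X, hX, rfl⟩; exact cz_mul hX hg
    · obtain ⟨X, -, hX⟩ := (SetLike.ext_iff.1 h 1).2 cz_one
      simp only [LinearMap.mulRight_apply] at hX
      rw [← one_mul g, ← hX, mul_assoc, hgg]
  have hUtop : U ≠ ⊤ := by
    intro h
    have h1 := finrank_app_le P W
    rw [← hU, h, finrank_top, Module.finrank_fin_fun] at h1
    exact absurd (hdim.trans h1) (Nat.not_le.2 (Nat.mul_lt_mul_of_pos_right (hlt f hfZ hff hf1) hWpos))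
  have hUbot : U ≠ ⊥ := by
    intro h
    set f' := 1 - f with hf'
    have hf'Z : f' ∈ Z := Submodule.sub_mem _ cz_one hfZ
    have hf'f : f' * f' = f' := by
      rw [hf', mul_sub, mul_one, sub_mul, one_mul, hff, sub_self, sub_zero]
    set P' : Submodule ℂ (Op n) := Z.map (LinearMap.mulRight ℂ f') with hP'
    have hle : app Z W ≤ app P W ⊔ app P' W := app_le.2 fun X hX w hw => by
      rw [show X = X * f + X * f' by rw [hf', ← mul_add, add_sub_cancel, mul_one],
        LinearMap.add_apply]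
      exact Submodule.add_mem_sup (apply_mem_app ⟨X, hX, rfl⟩ hw)
        (apply_mem_app ⟨X, hX, rfl⟩ hw)
    rw [htop, ← hU, h, bot_sup_eq] at hle
    have h1 := (Submodule.finrank_mono hle).trans (finrank_app_le P' W)
    rw [finrank_top, Module.finrank_fin_fun] at h1
    exact absurd (hdim.trans h1) (Nat.not_le.2 (Nat.mul_lt_mul_of_pos_right
      (hlt f' hf'Z hf'f fun h2 => hf0 (by simpa [hf'] using h2)) hWpos))
  -- the stabiliser
  have hinj : ∀ g : G, Function.Injective (ρ g) := fun g x y h => by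
    have h' := congrArg (ρ g⁻¹) h
    rwa [← Module.End.mul_apply, ← Module.End.mul_apply, rho_inv_mul, Module.End.one_apply,
      Module.End.one_apply] at h'
  have hmap : ∀ g h : G, U.map (ρ (g * h)) = (U.map (ρ h)).map (ρ g) := fun g h => by
    rw [map_mul, Module.End.mul_eq_comp, Submodule.map_comp]
  have hmap1 : U.map (ρ 1) = U := by rw [map_one, Module.End.one_eq_id, Submodule.map_id]
  let J : Subgroup G :=
    { carrier := {g | U.map (ρ g) = U}
      one_mem' := hmap1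
      mul_mem' := fun {a b} (ha : U.map (ρ a) = U) (hb : U.map (ρ b) = U) => by
        show U.map (ρ (a * b)) = U
        rw [hmap, hb, ha]
      inv_mem' := fun {a} (ha : U.map (ρ a) = U) => by
        show U.map (ρ a⁻¹) = U
        conv_lhs => rw [← ha]
        rw [← hmap, inv_mul_cancel, hmap1] }
  have hmemJ : ∀ g, (∀ x ∈ U, ρ g x ∈ U) → g ∈ J := fun g hg => by
    refine Submodule.eq_of_le_of_finrank_le (Submodule.map_le_iff_le_comap.2 fun x hx => hg x hx) ?_
    rw [LinearEquiv.finrank_eq (Submodule.equivMapOfInjective (ρ g) (hinj g) U)]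
  refine ⟨J, U, fun k hk => hmemJ k (hKapp P hPZ hPl k hk), fun h => ?_, hUbot,
    fun g hg x hx => (hg : U.map (ρ g) = U) ▸ Submodule.mem_map_of_mem hx, ?_⟩
  · rcases hirr U fun g x hx => ((h ▸ Subgroup.mem_top g : g ∈ J) : U.map (ρ g) = U) ▸
      Submodule.mem_map_of_mem hx with h' | h'
    · exact hUbot h'
    · exact hUtop h'
  · have hfix : ∀ h ∈ H, conjOp ρ h f = f → h ∈ J := fun h hh hhf => hmemJ h fun x hx =>
      hHapp P h hh P (fun X hX => by
        have h1 := hPconj h X hX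
        rwa [hhf] at h1) x hx
    have hidx : J.index ≤ O.card := by
      let Ψ : O → G ⧸ J := fun o =>
        QuotientGroup.mk (((Finset.mem_image.1 o.2).choose : H) : G)
      have hΨ : Function.Surjective Ψ := by
        intro c
        obtain ⟨g, rfl⟩ := QuotientGroup.mk_surjective c
        obtain ⟨h, hh, k, hk, rfl⟩ := hHKdec g
        have ho : conjOp ρ h f ∈ O :=
          Finset.mem_image.2 ⟨(⟨h, hh⟩ : H), Finset.mem_univ _, rfl⟩
        refine ⟨⟨_, ho⟩, QuotientGroup.eq.2 ?_⟩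
        set h₀ : H := (Finset.mem_image.1 ho).choose with hh₀
        have h1 : conjOp ρ (h₀ : G) f = conjOp ρ h f := (Finset.mem_image.1 ho).choose_spec.2
        show (h₀ : G)⁻¹ * (h * k) ∈ J
        rw [← mul_assoc]
        refine J.mul_mem (hfix _ (H.mul_mem (H.inv_mem h₀.2) hh) ?_) (hmemJ k (hKapp P hPZ hPl k hk))
        rw [← conjOp_conjOp, ← h1, conjOp_conjOp, inv_mul_cancel]
        simp [conjOp_apply]
      have h := Nat.card_le_card_of_surjective Ψ hΨ
      rwa [Nat.card_eq_fintype_card (α := ↥O), Fintype.card_coe, ← Subgroup.index_eq_card] at h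
    calc J.index * finrank ℂ U ≤ O.card * (finrank ℂ P * finrank ℂ W) :=
          Nat.mul_le_mul hidx (finrank_app_le P W)
      _ = O.card * finrank ℂ P * finrank ℂ W := (mul_assoc _ _ _).symm
      _ ≤ v * finrank ℂ W := Nat.mul_le_mul_right _ hOcount
      _ ≤ n := hdim

end CfsgLib.Chars.Berger
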